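import Mathlib
import Cfsg.Agent.H1.Coprime
import Cfsg.Agent.H4.Nilp
import Cfsg.Agent.H4.SolvMin
import Cfsg.Agent.H4.Frattini
import Cfsg.Agent.S0002

/-! Carter subgroups of finite solvable groups: basic lemmas. -/

set_option autoImplicit false

namespace Cfsg.Agent.Lib.Helper22

open Subgroup
open scoped Pointwise
open Cfsg.H1 (mem_conj_smul_iff conj_mul_smul card_conj_smul)

universe u

/-- nilpotent and self-normalizing. -/
def IsCarter {G : Type u} [Group G] (C : Subgroup G) : Prop :=
  Group.IsNilpotent C ∧ normalizer (C : Set G) = C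

theorem mem_normalizer_of_conj_smul_eq {G : Type u} [Group G] {C : Subgroup G} {k : G}
    (h : MulAut.conj k • C = C) : k ∈ normalizer (C : Set G) := by
  rw [mem_normalizer_iff'']
  intro x
  conv_lhs => rw [← h]
  exact mem_conj_smul_iff

theorem conj_smul_eq_of_mem_normalizer {G : Type u} [Group G] {C : Subgroup G} {k : G}
    (h : k ∈ normalizer (C : Set G)) : MulAut.conj k • C = C := by
  ext x
  rw [mem_conj_smul_iff]
  exact ((mem_normalizer_iff''.mp h) x).symm

theorem IsCarter.conj {G : Type u} [Group G] {C : Subgroup G} (h : IsCarter C) (g : G) :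
    IsCarter (MulAut.conj g • C) := by
  constructor
  · haveI := h.1
    exact Group.nilpotent_of_mulEquiv (Subgroup.equivSMul (MulAut.conj g) C)
  · apply le_antisymm _ le_normalizer
    intro x hx
    rw [mem_conj_smul_iff]
    rw [← h.2]
    apply mem_normalizer_of_conj_smul_eq
    have h1 := conj_smul_eq_of_mem_normalizer hx
    rw [← conj_mul_smul] at h1
    calc MulAut.conj (g⁻¹ * x * g) • C = MulAut.conj g⁻¹ • (MulAut.conj (x * g) • C) := by
          rw [← conj_mul_smul, mul_assoc]
      _ = MulAut.conj g⁻¹ • (MulAut.conj g • C) := by rw [h1]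
      _ = C := by rw [← conj_mul_smul, inv_mul_cancel, map_one, one_smul]

theorem IsCarter.subgroupOf {G : Type u} [Group G] {C L : Subgroup G} (h : IsCarter C)
    (hCL : C ≤ L) : IsCarter (C.subgroupOf L) := by
  constructor
  · haveI := h.1
    exact Group.nilpotent_of_mulEquiv (subgroupOfEquivOfLe hCL).symm
  · apply le_antisymm _ le_normalizer
    intro x hx
    rw [mem_subgroupOf, ← h.2, mem_normalizer_iff]
    intro c
    rw [mem_normalizer_iff] at hx
    constructor
    · intro hc
      exact mem_subgroupOf.mp ((hx ⟨c, hCL hc⟩).mp (mem_subgroupOf.mpr hc))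
    · intro hc
      have hcL : c ∈ L := by
        have := L.mul_mem (L.mul_mem (L.inv_mem x.2) (hCL hc)) x.2
        simpa [mul_assoc] using this
      exact mem_subgroupOf.mp ((hx ⟨c, hcL⟩).mpr (mem_subgroupOf.mpr hc))

theorem conj_of_subgroupOf {G : Type u} [Group G] {C D L : Subgroup G} (hC : C ≤ L) (hD : D ≤ L)
    (h : ∃ k : L, MulAut.conj k • C.subgroupOf L = D.subgroupOf L) :
    ∃ k ∈ L, MulAut.conj k • C = D := by
  obtain ⟨k, hk⟩ := h
  refine ⟨k, k.2, ?_⟩
  ext x
  rw [mem_conj_smul_iff]
  constructor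
  · intro hx
    have hxL : x ∈ L := by
      have := L.mul_mem (L.mul_mem k.2 (hC hx)) (L.inv_mem k.2)
      simpa [mul_assoc] using this
    have h1 : (⟨x, hxL⟩ : L) ∈ MulAut.conj k • C.subgroupOf L := by
      rw [mem_conj_smul_iff]; exact mem_subgroupOf.mpr hx
    rw [hk] at h1
    exact mem_subgroupOf.mp h1
  · intro hx
    have h1 : (⟨x, hD hx⟩ : L) ∈ MulAut.conj k • C.subgroupOf L := by
      rw [hk]; exact mem_subgroupOf.mpr hx
    rw [mem_conj_smul_iff] at h1
    exact mem_subgroupOf.mp h1

/-- local conjugacy hypothesis: Carter subgroups of proper subgroups are conjugate. -/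
def ProperConj (G : Type u) [Group G] : Prop :=
  ∀ L : Subgroup G, L ≠ ⊤ → ∀ C D : Subgroup L, IsCarter C → IsCarter D →
    ∃ k : L, MulAut.conj k • C = D

theorem IsCarter.normalizer_sup {G : Type u} [Group G] (hconj : ProperConj G) {C : Subgroup G}
    (h : IsCarter C) (N : Subgroup G) [N.Normal] :
    normalizer ((C ⊔ N : Subgroup G) : Set G) = C ⊔ N := by
  apply le_antisymm _ le_normalizer
  intro g hg
  by_cases hL : C ⊔ N = ⊤
  · rw [hL]; trivial
  have hD : MulAut.conj g • C ≤ C ⊔ N := by
    intro x hx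
    rw [mem_conj_smul_iff] at hx
    have h1 : g⁻¹ * x * g ∈ C ⊔ N := le_sup_left (a := C) hx
    exact ((mem_normalizer_iff''.mp hg) x).mpr h1
  obtain ⟨k, hk, hkC⟩ := conj_of_subgroupOf le_sup_left hD
    (hconj _ hL _ _ (h.subgroupOf le_sup_left) ((h.conj g).subgroupOf hD))
  have h2 : k⁻¹ * g ∈ normalizer (C : Set G) := by
    apply mem_normalizer_of_conj_smul_eq
    rw [conj_mul_smul, ← hkC, ← conj_mul_smul, inv_mul_cancel, map_one, one_smul]
  rw [h.2] at h2
  have : g = k * (k⁻¹ * g) := by group
  rw [this]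
  exact mul_mem hk (le_sup_left (a := C) h2)

theorem IsCarter.map_eq_top {X Y : Type u} [Group X] [Group Y] (hconj : ProperConj X)
    {C : Subgroup X} (h : IsCarter C) (f : X →* Y) (hf : Function.Surjective f)
    [Group.IsNilpotent Y] : C.map f = ⊤ := by
  have hnc : NormalizerCondition Y := Group.normalizerCondition_of_isNilpotent
  rw [normalizerCondition_iff_only_full_group_self_normalizing] at hnc
  apply hnc
  have h1 := comap_normalizer_eq_of_surjective (C.map f) hf
  rw [comap_map_eq, h.normalizer_sup hconj f.ker, ← comap_map_eq] at h1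
  exact comap_injective hf h1

theorem IsCarter.map_mk' {G : Type u} [Group G] (hconj : ProperConj G) {C : Subgroup G}
    (h : IsCarter C) (N : Subgroup G) [N.Normal] : IsCarter (C.map (QuotientGroup.mk' N)) := by
  have hf := QuotientGroup.mk'_surjective N
  constructor
  · haveI := h.1
    exact Group.nilpotent_of_surjective _ ((QuotientGroup.mk' N).subgroupMap_surjective C)
  · have h1 := comap_normalizer_eq_of_surjective (C.map (QuotientGroup.mk' N)) hf
    have h2 := h.normalizer_sup hconj N
    rw [comap_map_eq, QuotientGroup.ker_mk', h2] at h1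
    have h3 : (C ⊔ N) = (C.map (QuotientGroup.mk' N)).comap (QuotientGroup.mk' N) := by
      rw [comap_map_eq, QuotientGroup.ker_mk']
    rw [h3] at h1
    exact comap_injective hf h1

/-- lifting conjugacy from a quotient. -/
theorem exists_conj_sup_eq {G : Type u} [Group G] (N : Subgroup G) [N.Normal] (C D : Subgroup G)
    (h : ∃ k : G ⧸ N, MulAut.conj k • C.map (QuotientGroup.mk' N) = D.map (QuotientGroup.mk' N)) :
    ∃ g : G, (MulAut.conj g • C) ⊔ N = D ⊔ N := by
  obtain ⟨k, hk⟩ := h
  obtain ⟨g, rfl⟩ := QuotientGroup.mk'_surjective N k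
  refine ⟨g, ?_⟩
  have h1 : (MulAut.conj g • C).map (QuotientGroup.mk' N) = D.map (QuotientGroup.mk' N) := by
    rw [← hk]
    ext x
    rw [mem_conj_smul_iff]
    constructor
    · rintro ⟨y, hy, rfl⟩
      have hy' := mem_conj_smul_iff.mp hy
      exact ⟨g⁻¹ * y * g, hy', by simp⟩
    · rintro ⟨c, hc, hcx⟩
      refine ⟨g * c * g⁻¹, ?_, ?_⟩
      · show g * c * g⁻¹ ∈ MulAut.conj g • C
        rw [mem_conj_smul_iff]
        have : g⁻¹ * (g * c * g⁻¹) * g = c := by group
        rw [this]; exact hc
      · rw [map_mul, map_mul, hcx, map_inv]; group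
  have h2 := congrArg (comap (QuotientGroup.mk' N)) h1
  rwa [comap_map_eq, comap_map_eq, QuotientGroup.ker_mk'] at h2

end Cfsg.Agent.Lib.Helper22
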