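import Mathlib
import Cfsg.Agent.Lib.Helper22.Carter1

/-! Carter subgroups of finite solvable groups: conjugacy and existence. -/

set_option autoImplicit false

namespace Cfsg.Agent.Lib.Helper22

open Subgroup
open scoped Pointwise
open Cfsg.H1 (mem_conj_smul_iff conj_mul_smul card_conj_smul)

universe u

theorem inf_normal_of_sup_eq_top {G : Type u} [Group G] (C N : Subgroup G) [hN : N.Normal]
    (hNc : IsMulCommutative N) (h : C ⊔ N = ⊤) : (C ⊓ N).Normal := by
  rw [← normalizer_eq_top_iff, eq_top_iff, ← h]
  apply sup_le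
  · intro c hc
    rw [mem_normalizer_iff]
    intro d
    constructor
    · rintro ⟨h1, h2⟩
      exact ⟨C.mul_mem (C.mul_mem hc h1) (C.inv_mem hc), hN.conj_mem d h2 c⟩
    · rintro ⟨h1, h2⟩
      constructor
      · have := C.mul_mem (C.mul_mem (C.inv_mem hc) h1) hc
        simpa [mul_assoc] using this
      · have := hN.conj_mem _ h2 c⁻¹
        simpa [mul_assoc] using this
  · intro n hn
    rw [mem_normalizer_iff]
    intro d
    have key : ∀ d ∈ N, n * d * n⁻¹ = d := by
      intro d hd
      have : n * d = d * n := congrArg Subtype.val (hNc.is_comm.comm ⟨n, hn⟩ ⟨d, hd⟩)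
      rw [this]; group
    constructor
    · rintro ⟨h1, h2⟩
      rw [key d h2]; exact ⟨h1, h2⟩
    · rintro ⟨h1, h2⟩
      have hdN : d ∈ N := by
        have := hN.conj_mem _ h2 n⁻¹
        simpa [mul_assoc] using this
      rw [key d hdN] at h1
      exact ⟨h1, hdN⟩

theorem eq_top_of_isCarter_of_isNilpotent {G : Type u} [Group G] [Group.IsNilpotent G]
    {D : Subgroup G} (h : IsCarter D) : D = ⊤ := by
  have hnc : NormalizerCondition G := Group.normalizerCondition_of_isNilpotent
  rw [normalizerCondition_iff_only_full_group_self_normalizing] at hnc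
  exact hnc D h.2

/-- the final case of the conjugacy proof. -/
theorem carter_conj_final {G : Type u} [Group G] [Finite G] [Group.IsSolvable G]
    (hconj : ProperConj G)
    (hquot : ∀ (K : Subgroup G) [K.Normal], K ≠ ⊥ → ∀ C D : Subgroup (G ⧸ K),
      IsCarter C → IsCarter D → ∃ k : G ⧸ K, MulAut.conj k • C = D)
    (N : Subgroup G) [hN : N.Normal] (hN0 : N ≠ ⊥)
    (hmin : ∀ K : Subgroup G, K.Normal → K ≤ N → K = ⊥ ∨ K = N)
    (C D : Subgroup G) (hC : IsCarter C) (hD : IsCarter D) (hCN : C ⊔ N = ⊤) (hDN : D ⊔ N = ⊤) :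
    ∃ g : G, MulAut.conj g • C = D := by
  obtain ⟨hNc, p, hp, hNp⟩ := Cfsg.Agent.H4.minimal_normal_of_solvable N hN0 hmin
  haveI : Fact p.Prime := ⟨hp⟩
  have htop : ∀ C D : Subgroup G, IsCarter C → IsCarter D → N ≤ C → C ⊔ N = ⊤ → C = D := by
    intro C D hC hD h1 h2
    have h3 : C = ⊤ := by rw [← h2]; exact (sup_eq_left.mpr h1).symm
    haveI : Group.IsNilpotent G := by
      haveI := hC.1
      rw [h3] at this
      exact Group.nilpotent_of_mulEquiv topEquiv
    rw [h3, eq_top_of_isCarter_of_isNilpotent hD]
  rcases hmin _ (inf_normal_of_sup_eq_top C N hNc hCN) inf_le_right with h1 | h1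
  swap
  · exact ⟨1, by rw [map_one, one_smul]; exact htop C D hC hD (inf_eq_right.mp h1) hCN⟩
  rcases hmin _ (inf_normal_of_sup_eq_top D N hNc hDN) inf_le_right with h2 | h2
  swap
  · exact ⟨1, by rw [map_one, one_smul]; exact (htop D C hD hC (inf_eq_right.mp h2) hDN).symm⟩
  have hcC : IsComplement' N C :=
    Cfsg.Agent.H4.isComplement'_of_normal_of_inf_of_sup (by rw [inf_comm]; exact h1)
      (by rw [sup_comm]; exact hCN)
  have hcD : IsComplement' N D :=
    Cfsg.Agent.H4.isComplement'_of_normal_of_inf_of_sup (by rw [inf_comm]; exact h2)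
      (by rw [sup_comm]; exact hDN)
  have hcard : Nat.card C = Nat.card D := by
    have e1 := hcC.card_mul_card
    have e2 := hcD.card_mul_card
    have : 0 < Nat.card N := Nat.card_pos
    exact Nat.eq_of_mul_eq_mul_left this (e1.trans e2.symm)
  set K := C ⊓ centralizer (N : Set G) with hK
  have hKn : K.Normal := by
    rw [← normalizer_eq_top_iff, eq_top_iff, ← hCN]
    apply sup_le
    · intro c hc
      rw [mem_normalizer_iff]
      intro d
      have hcen : (centralizer (N : Set G)).Normal := inferInstance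
      constructor
      · rintro ⟨h1, h2⟩
        exact ⟨C.mul_mem (C.mul_mem hc h1) (C.inv_mem hc), hcen.conj_mem d h2 c⟩
      · rintro ⟨h1, h2⟩
        constructor
        · have := C.mul_mem (C.mul_mem (C.inv_mem hc) h1) hc
          simpa [mul_assoc] using this
        · have := hcen.conj_mem _ h2 c⁻¹
          simpa [mul_assoc] using this
    · intro n hn
      rw [mem_normalizer_iff]
      intro d
      have key : ∀ d ∈ centralizer (N : Set G), n * d * n⁻¹ = d := by
        intro d hd
        rw [mem_centralizer_iff.mp hd n hn]; group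
      have hcen : (centralizer (N : Set G)).Normal := inferInstance
      constructor
      · rintro ⟨h1, h2⟩
        rw [key d h2]; exact ⟨h1, h2⟩
      · rintro ⟨h1, h2⟩
        have hdN : d ∈ centralizer (N : Set G) := by
          have := hcen.conj_mem _ h2 n⁻¹
          simpa [mul_assoc] using this
        rw [key d hdN] at h1
        exact ⟨h1, hdN⟩
  by_cases hK0 : K = ⊥
  · -- `C` is a `p'`-group
    have hpC : ¬ p ∣ Nat.card C := by
      intro hdvd
      obtain ⟨S0⟩ : Nonempty (Sylow p C) := inferInstance
      haveI := hC.1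
      have q := (Group.isNilpotent_of_finite_tfae (G := C)).out 0 3
      have hS0n : (S0 : Subgroup C).Normal := q.mp inferInstance p ⟨hp⟩ S0
      set S := (S0 : Subgroup C).map C.subtype with hS
      have hSC : S ≤ C := map_subtype_le _
      have hSp : IsPGroup p S := S0.isPGroup'.map _
      have hTp : IsPGroup p (S ⊔ N : Subgroup G) := hSp.to_sup_of_normal_right hNp
      have hTn : (S ⊔ N).Normal := by
        rw [← normalizer_eq_top_iff, eq_top_iff, ← hCN]
        apply sup_le
        · intro c hc
          have hcS : c ∈ normalizer (S : Set G) := by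
            rw [mem_normalizer_iff]
            intro d
            constructor
            · rintro ⟨d', hd', rfl⟩
              exact ⟨⟨c, hc⟩ * d' * ⟨c, hc⟩⁻¹, hS0n.conj_mem d' hd' ⟨c, hc⟩, rfl⟩
            · rintro ⟨e', he', hee⟩
              refine ⟨⟨c, hc⟩⁻¹ * e' * ⟨c, hc⟩, ?_, ?_⟩
              · have := hS0n.conj_mem e' he' ⟨c, hc⟩⁻¹
                rw [inv_inv] at this
                exact this
              · show c⁻¹ * (e' : G) * c = d
                have hee' : (e' : G) = c * d * c⁻¹ := hee
                rw [hee']; group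
          rw [mem_normalizer_iff_map_conj_eq] at hcS ⊢
          rw [Subgroup.map_sup, hcS, (normal_iff_map_conj_eq.mp hN) c]
        · exact (le_sup_right (a := S)).trans le_normalizer
      haveI : Group.IsNilpotent (S ⊔ N : Subgroup G) := hTp.isNilpotent
      have h3 := Cfsg.Agent.H4.nilpotent_normal_le_centralizer_minimal_normal N hmin (S ⊔ N)
      have h4 : S ≤ K := le_inf hSC (le_sup_left.trans h3)
      rw [hK0, le_bot_iff, hS, map_eq_bot_iff_of_injective _ C.subtype_injective] at h4
      exact S0.ne_bot_of_dvd_card hdvd h4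
    have hcop : (Nat.card N).Coprime N.index := by
      rw [hcC.symm.index_eq_card]
      obtain ⟨k, hk⟩ := IsPGroup.iff_card.mp hNp
      rw [hk]
      exact Nat.Coprime.pow_left k ((Nat.Prime.coprime_iff_not_dvd hp).mpr hpC)
    obtain ⟨a, _, ha⟩ := Cfsg.Agent.S0002.result N hcop C D hcC hcD
    exact ⟨a, ha⟩
  · haveI := hKn
    obtain ⟨g, hg⟩ := exists_conj_sup_eq K D C
      (hquot K hK0 _ _ (hD.map_mk' hconj K) (hC.map_mk' hconj K))
    rw [sup_eq_left.mpr (inf_le_left : K ≤ C)] at hg
    have h5 : MulAut.conj g • D ≤ C := by rw [← hg]; exact le_sup_left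
    have h6 : MulAut.conj g • D = C :=
      eq_of_le_of_card_ge h5 (by rw [card_conj_smul, hcard])
    refine ⟨g⁻¹, ?_⟩
    rw [← h6, ← conj_mul_smul, inv_mul_cancel, map_one, one_smul]

end Cfsg.Agent.Lib.Helper22
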