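import Mathlib
import Cfsg.Agent.Lib.Helper22.Carter2
import Cfsg.Agent.H4.MinNormal

/-! Carter subgroups of finite solvable groups: conjugacy and existence (inductions). -/

set_option autoImplicit false

namespace Cfsg.Agent.Lib.Helper22

open Subgroup
open scoped Pointwise
open Cfsg.H1 (mem_conj_smul_iff conj_mul_smul card_conj_smul)

universe u

theorem card_subgroup_lt_of_ne_top {G : Type u} [Group G] [Finite G] {L : Subgroup G}
    (hL : L ≠ ⊤) : Nat.card L < Nat.card G := by
  by_contra h
  exact hL (L.eq_top_of_le_card (not_lt.mp h))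

theorem card_quotient_lt_of_ne_bot {G : Type u} [Group G] [Finite G] {K : Subgroup G}
    (hK : K ≠ ⊥) : Nat.card (G ⧸ K) < Nat.card G := by
  rw [Subgroup.card_eq_card_quotient_mul_card_subgroup K]
  have h1 : 1 < Nat.card K := K.one_lt_card_iff_ne_bot.mpr hK
  have h2 : 0 < Nat.card (G ⧸ K) := Nat.card_pos
  nlinarith

theorem carter_conj_aux (n : ℕ) : ∀ (G : Type u) [Group G] [Finite G] [Group.IsSolvable G],
    Nat.card G ≤ n → ∀ C D : Subgroup G, IsCarter C → IsCarter D →
      ∃ g : G, MulAut.conj g • C = D := by
  induction n with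
  | zero =>
    intro G _ _ _ h
    exact absurd h (by have := Nat.card_pos (α := G); omega)
  | succ n ih =>
    intro G _ _ _ hn C D hC hD
    have hconj : ProperConj G := by
      intro L hL C D hC hD
      have := card_subgroup_lt_of_ne_top hL
      exact ih L (by omega) C D hC hD
    have hquot : ∀ (K : Subgroup G) [K.Normal], K ≠ ⊥ → ∀ C D : Subgroup (G ⧸ K),
        IsCarter C → IsCarter D → ∃ k : G ⧸ K, MulAut.conj k • C = D := by
      intro K _ hK C D hC hD
      have := card_quotient_lt_of_ne_bot hK
      exact ih (G ⧸ K) (by omega) C D hC hD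
    by_cases htriv : (⊤ : Subgroup G) = ⊥
    · haveI : Subsingleton (Subgroup G) := subsingleton_of_bot_eq_top htriv.symm
      exact ⟨1, Subsingleton.elim _ _⟩
    obtain ⟨N, hN, hN0, -, hmin⟩ :=
      Cfsg.Agent.H4.exists_minimal_normal_le (D := (⊤ : Subgroup G)) inferInstance htriv
    haveI := hN
    obtain ⟨g, hg⟩ := exists_conj_sup_eq N C D
      (hquot N hN0 _ _ (hC.map_mk' hconj N) (hD.map_mk' hconj N))
    have hC1 := hC.conj g
    by_cases hL : D ⊔ N = ⊤
    · obtain ⟨k, hk⟩ := carter_conj_final hconj hquot N hN0 hmin _ D hC1 hD (hg.trans hL) hL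
      exact ⟨k * g, by rw [conj_mul_smul]; exact hk⟩
    · have h1 : MulAut.conj g • C ≤ D ⊔ N := by rw [← hg]; exact le_sup_left
      obtain ⟨k, -, hk⟩ := conj_of_subgroupOf h1 le_sup_left
        (hconj _ hL _ _ (hC1.subgroupOf h1) (hD.subgroupOf le_sup_left))
      exact ⟨k * g, by rw [conj_mul_smul]; exact hk⟩

theorem carter_conj {G : Type u} [Group G] [Finite G] [Group.IsSolvable G] (C D : Subgroup G)
    (hC : IsCarter C) (hD : IsCarter D) : ∃ g : G, MulAut.conj g • C = D :=
  carter_conj_aux _ G le_rfl C D hC hD

theorem carter_exists_aux (n : ℕ) : ∀ (G : Type u) [Group G] [Finite G] [Group.IsSolvable G],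
    Nat.card G ≤ n → ∃ C : Subgroup G, IsCarter C := by
  induction n with
  | zero =>
    intro G _ _ _ h
    exact absurd h (by have := Nat.card_pos (α := G); omega)
  | succ n ih =>
    intro G _ _ _ hn
    by_cases hnil : Group.IsNilpotent G
    · refine ⟨⊤, inferInstance, ?_⟩
      exact normalizer_eq_top_iff.mpr inferInstance
    have htriv : (⊤ : Subgroup G) ≠ ⊥ := by
      intro h
      apply hnil
      haveI : Subsingleton G := Subgroup.subsingleton_iff.mp (subsingleton_of_bot_eq_top h.symm)
      infer_instance
    obtain ⟨N, hN, hN0, -, hmin⟩ :=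
      Cfsg.Agent.H4.exists_minimal_normal_le (D := (⊤ : Subgroup G)) inferInstance htriv
    haveI := hN
    obtain ⟨hNc, p, hp, hNp⟩ := Cfsg.Agent.H4.minimal_normal_of_solvable N hN0 hmin
    have hsurj := QuotientGroup.mk'_surjective N
    obtain ⟨Kb, hKb⟩ := ih (G ⧸ N) (by have := card_quotient_lt_of_ne_bot hN0; omega)
    by_cases hK : Kb.comap (QuotientGroup.mk' N) = ⊤
    · have hKb' : Kb = ⊤ := comap_injective hsurj (hK.trans (comap_top _).symm)
      haveI : Group.IsNilpotent (G ⧸ N) := by
        have := hKb.1
        rw [hKb'] at this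
        exact Group.nilpotent_of_mulEquiv topEquiv
      have q := (Group.isNilpotent_of_finite_tfae (G := G)).out 0 2
      obtain ⟨M, hM, hMn⟩ : ∃ M : Subgroup G, IsCoatom M ∧ ¬ M.Normal := by
        by_contra hcon
        push Not at hcon
        exact hnil (q.mpr hcon)
      have hself : normalizer (M : Set G) = M := by
        rcases hM.le_iff.mp (le_normalizer (H := M)) with h | h
        · exact absurd (normalizer_eq_top_iff.mp h) hMn
        · exact h
      have hNM : ¬ N ≤ M := by
        intro hle
        have hnc : NormalizerCondition (G ⧸ N) := Group.normalizerCondition_of_isNilpotent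
        rw [normalizerCondition_iff_only_full_group_self_normalizing] at hnc
        have h3 := comap_normalizer_eq_of_surjective (M.map (QuotientGroup.mk' N)) hsurj
        have h4 : (M.map (QuotientGroup.mk' N)).comap (QuotientGroup.mk' N) = M := by
          rw [comap_map_eq, QuotientGroup.ker_mk', sup_eq_left.mpr hle]
        rw [h4, hself] at h3
        have h5 := hnc _ (comap_injective hsurj (h3.trans h4.symm))
        rw [h5, comap_top] at h4
        exact hM.1 h4.symm
      have hMN : M ⊔ N = ⊤ := by
        apply hM.2
        apply lt_of_le_of_ne le_sup_left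
        intro h
        exact hNM (by rw [h]; exact le_sup_right)
      have hinf : M ⊓ N = ⊥ := by
        rcases hmin _ (inf_normal_of_sup_eq_top M N hNc hMN) inf_le_right with h | h
        · exact h
        · exact absurd (inf_eq_right.mp h) hNM
      refine ⟨M, ?_, hself⟩
      have hf : Function.Injective ((QuotientGroup.mk' N).comp M.subtype) := by
        rw [injective_iff_map_eq_one]
        intro x hx
        have h1 : (x : G) ∈ N := (QuotientGroup.eq_one_iff _).mp hx
        have h2 : (x : G) ∈ M ⊓ N := ⟨x.2, h1⟩
        rw [hinf, mem_bot] at h2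
        exact Subtype.ext h2
      haveI : Group.IsNilpotent ((QuotientGroup.mk' N).comp M.subtype).range := inferInstance
      exact Group.nilpotent_of_mulEquiv (MonoidHom.ofInjective hf).symm
    · set K := Kb.comap (QuotientGroup.mk' N) with hKdef
      obtain ⟨C', hC'⟩ := ih K (by have := card_subgroup_lt_of_ne_top hK; omega)
      have hconjK : ProperConj K := fun L _ C D hC hD => carter_conj C D hC hD
      haveI := hKb.1
      have htop := hC'.map_eq_top hconjK ((QuotientGroup.mk' N).subgroupComap Kb)
        ((QuotientGroup.mk' N).subgroupComap_surjective_of_surjective Kb hsurj)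
      have hCK : C'.map K.subtype ≤ K := map_subtype_le _
      have himg : (C'.map K.subtype).map (QuotientGroup.mk' N) = Kb := by
        ext y
        constructor
        · rintro ⟨c, hc, rfl⟩
          exact hCK hc
        · intro hy
          have h1 : (⟨y, hy⟩ : Kb) ∈ C'.map ((QuotientGroup.mk' N).subgroupComap Kb) := by
            rw [htop]; trivial
          obtain ⟨c', hc', hcy⟩ := h1
          exact ⟨c', ⟨c', hc', rfl⟩, congrArg Subtype.val hcy⟩
      refine ⟨C'.map K.subtype, ?_, ?_⟩
      · haveI := hC'.1
        exact Group.nilpotent_of_mulEquiv (C'.equivMapOfInjective K.subtype K.subtype_injective)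
      · apply le_antisymm _ le_normalizer
        intro x hx
        have hxK : x ∈ K := by
          have h1 := le_normalizer_map (QuotientGroup.mk' N) (mem_map_of_mem _ hx)
          rw [himg, hKb.2] at h1
          exact h1
        have h2 : (⟨x, hxK⟩ : K) ∈ normalizer (C' : Set K) := by
          rw [mem_normalizer_iff]
          intro h
          rw [mem_normalizer_iff] at hx
          have h3 := hx (h : G)
          have e1 : ∀ z : K, (z : G) ∈ C'.map K.subtype ↔ z ∈ C' := fun z =>
            mem_map_iff_mem K.subtype_injective (x := z)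
          rw [e1 h] at h3
          rw [h3]
          exact e1 (⟨x, hxK⟩ * h * ⟨x, hxK⟩⁻¹)
        rw [hC'.2] at h2
        exact ⟨⟨x, hxK⟩, h2, rfl⟩

theorem carter_exists (G : Type u) [Group G] [Finite G] [Group.IsSolvable G] :
    ∃ C : Subgroup G, IsCarter C :=
  carter_exists_aux _ G le_rfl

end Cfsg.Agent.Lib.Helper22
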