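import Mathlib
import Cfsg.Agent.Lib.Helper22.AutBound

set_option autoImplicit false

namespace Cfsg.Agent.Lib.Helper22

open Subgroup

/-- The number of generating `r`-tuples of an `r`-dimensional space over `ZMod p`. -/
theorem card_generating_tuples_add {V : Type*} [AddCommGroup V] {p r : ℕ} [Fact p.Prime]
    [Module (ZMod p) V] [Finite V] (hV : Nat.card V = p ^ r) :
    Nat.card {g : Fin r → V // AddSubgroup.closure (Set.range g) = ⊤} =
      ∏ i ∈ Finset.range r, (p ^ r - p ^ i) := by
  have hp : p.Prime := Fact.out
  have hrank : Module.finrank (ZMod p) V = r := by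
    have h1 : Nat.card V = Nat.card (ZMod p) ^ Module.finrank (ZMod p) V :=
      Module.natCard_eq_pow_finrank
    rw [hV, Nat.card_zmod] at h1
    exact (Nat.pow_right_injective hp.two_le h1).symm
  have hiff : ∀ g : Fin r → V, AddSubgroup.closure (Set.range g) = ⊤ ↔
      LinearIndependent (ZMod p) g := by
    intro g
    constructor
    · intro hg
      apply linearIndependent_of_top_le_span_of_card_eq_finrank
      · intro v _
        have hv : v ∈ AddSubgroup.closure (Set.range g) := by rw [hg]; trivial
        induction hv using AddSubgroup.closure_induction with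
        | mem x hx => exact Submodule.subset_span hx
        | zero => exact Submodule.zero_mem _
        | add x y _ _ hx hy => exact Submodule.add_mem _ (hx trivial) (hy trivial)
        | neg x _ hx => exact Submodule.neg_mem _ (hx trivial)
      · rw [Fintype.card_fin, hrank]
    · intro hg
      have hspan := hg.span_eq_top_of_card_eq_finrank' (by rw [Fintype.card_fin, hrank])
      rw [eq_top_iff]
      intro x _
      have hx : x ∈ Submodule.span (ZMod p) (Set.range g) := by
        rw [hspan]; exact Submodule.mem_top
      induction hx using Submodule.span_induction with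
      | mem v hv => exact AddSubgroup.subset_closure hv
      | zero => exact zero_mem _
      | add v w _ _ hv hw => exact add_mem (hv trivial) (hw trivial)
      | smul c v _ hv =>
        have : c • v = c.val • v := by
          rw [← Nat.cast_smul_eq_nsmul (ZMod p), ZMod.natCast_zmod_val]
        rw [this]
        exact nsmul_mem (hv trivial) _
  rw [Nat.card_congr (Equiv.subtypeEquivRight hiff), card_linearIndependent (by rw [hrank]), hrank,
    ZMod.card, Fin.prod_univ_eq_prod_range (fun i => p ^ r - p ^ i) r]

/-- The number of generating `r`-tuples of an elementary abelian group of order `p ^ r`. -/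
theorem card_generating_tuples {Q : Type*} [CommGroup Q] {p r : ℕ} [Fact p.Prime]
    (hQ : Nat.card Q = p ^ r) (hexp : ∀ x : Q, x ^ p = 1) :
    Nat.card {g : Fin r → Q // closure (Set.range g) = ⊤} = ∏ i ∈ Finset.range r, (p ^ r - p ^ i) := by
  have hp : p.Prime := Fact.out
  have hfin : Finite Q := Nat.finite_of_card_ne_zero (by rw [hQ]; exact pow_ne_zero _ hp.ne_zero)
  let inst : Module (ZMod p) (Additive Q) := AddCommGroup.zmodModule (n := p) (fun x => by
    induction x using Additive.rec with
    | ofMul x => rw [← ofMul_pow, hexp]; rfl)
  have hfinV : Finite (Additive Q) := hfin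
  have key := @card_generating_tuples_add (Additive Q) _ p r _ inst hfinV hQ
  rw [← key]
  refine Nat.card_congr (Equiv.subtypeEquiv (Equiv.refl _) ?_)
  intro g
  have h1 := Subgroup.toAddSubgroup_closure (Set.range g)
  constructor
  · intro h
    rw [h] at h1
    exact h1.symm
  · intro h
    have h2 : AddSubgroup.closure (Additive.toMul ⁻¹' Set.range g) = ⊤ := h
    rw [h2] at h1
    exact Subgroup.toAddSubgroup.injective h1

end Cfsg.Agent.Lib.Helper22
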