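import Mathlib
import Cfsg.Agent.Lib.Helper2.DihedralHom

/-! Recognition of the dihedral group of order 8 (helper22). -/

set_option autoImplicit false

namespace Cfsg.Agent.H22

theorem d8_rec {P : Type*} [Group P] [Finite P] (z t : P) (hz : orderOf z = 2)
    (hzc : ∀ a : P, a * z = z * a)
    (hcomm : ∀ a b : P, a * b * a⁻¹ = b ∨ a * b * a⁻¹ = z * b)
    (hsq : ∀ a : P, a * a = 1 ∨ a * a = z)
    (hcen : ∀ c : P, (∀ a : P, a * c = c * a) → c = 1 ∨ c = z)
    (ht : orderOf t = 2) (x : P) (hx : x * t * x⁻¹ ≠ t)
    (hA : ∀ a : P, a * t = t * a → a * a = 1) :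
    Nonempty (P ≃* DihedralGroup 4) := by
  classical
  have hzz : z * z = 1 := by
    have := pow_orderOf_eq_one z
    rwa [hz, sq] at this
  have hz1 : z ≠ 1 := by
    intro h; rw [h, orderOf_one] at hz; norm_num at hz
  have htt : t * t = 1 := by
    have := pow_orderOf_eq_one t
    rwa [ht, sq] at this
  have ht1 : t ≠ 1 := by
    intro h; rw [h, orderOf_one] at ht; norm_num at ht
  have hxt : x * t * x⁻¹ = z * t := (hcomm x t).resolve_left hx
  have hxt' : x * t = z * t * x := by
    rw [← hxt]; group
  -- centralizer of t is abelian
  have hAab : ∀ a b : P, a * t = t * a → b * t = t * b → a * b = b * a := by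
    intro a b ha hb
    have hab : (a * b) * t = t * (a * b) := by
      rw [mul_assoc, hb, ← mul_assoc, ha, mul_assoc]
    have h1 := hA _ hab
    have h2 := hA _ ha
    have h3 := hA _ hb
    calc a * b = a * b * ((a * b) * (b * a)) := by
            have : (a * b) * (b * a) = 1 := by
              calc (a * b) * (b * a) = a * (b * b) * a := by group
                _ = 1 := by rw [h3, mul_one, h2]
            rw [this, mul_one]
      _ = ((a * b) * (a * b)) * (b * a) := by group
      _ = b * a := by rw [h1, one_mul]
  -- every element is in A or x A
  have hsplit : ∀ p : P, p * t = t * p ∨ (x⁻¹ * p) * t = t * (x⁻¹ * p) := by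
    intro p
    rcases hcomm p t with h | h
    · left
      calc p * t = p * t * p⁻¹ * p := by group
        _ = t * p := by rw [h]
    · right
      have hpt : p * t = z * t * p := by rw [← h]; group
      have hxi : x⁻¹ * (z * t) = t * x⁻¹ := by
        rw [← hxt]; group
      calc (x⁻¹ * p) * t = x⁻¹ * (p * t) := by group
        _ = x⁻¹ * (z * t) * p := by rw [hpt]; group
        _ = t * (x⁻¹ * p) := by rw [hxi]; group
  -- elements of A commuting with x are central
  have hAx : ∀ a : P, a * t = t * a → a * x = x * a → a = 1 ∨ a = z := by
    intro a ha hax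
    apply hcen
    intro p
    rcases hsplit p with h | h
    · exact hAab p a h ha
    · have h1 := hAab _ a h ha
      calc p * a = x * ((x⁻¹ * p) * a) := by group
        _ = x * (a * (x⁻¹ * p)) := by rw [h1]
        _ = (x * a) * x⁻¹ * p := by group
        _ = a * p := by rw [← hax]; group
  have hA4 : ∀ a : P, a * t = t * a → a = 1 ∨ a = z ∨ a = t ∨ a = t * z := by
    intro a ha
    rcases hcomm a x with h | h
    · have hax : a * x = x * a := by
        calc a * x = a * x * a⁻¹ * a := by group
          _ = x * a := by rw [h]
      rcases hAx a ha hax with h | h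
      · exact Or.inl h
      · exact Or.inr (Or.inl h)
    · -- then t * a commutes with x
      have hax : a * x = z * x * a := by rw [← h]; group
      have htx : t * x = z * x * t := by
        have : x * t = z * (t * x) := by rw [hxt', mul_assoc]
        calc t * x = (z * z) * (t * x) := by rw [hzz, one_mul]
          _ = z * (z * (t * x)) := by group
          _ = z * (x * t) := by rw [this]
          _ = z * x * t := by group
      have h1 : (t * a) * x = x * (t * a) := by
        calc (t * a) * x = t * (a * x) := by group
          _ = t * (z * x * a) := by rw [hax]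
          _ = (t * z) * x * a := by group
          _ = (z * t) * x * a := by rw [hzc t]
          _ = z * (t * x) * a := by group
          _ = z * (z * x * t) * a := by rw [htx]
          _ = (z * z) * x * (t * a) := by group
          _ = x * (t * a) := by rw [hzz, one_mul]
      have h2 : (t * a) * t = t * (t * a) := by
        rw [mul_assoc, ha]
      rcases hAx _ h2 h1 with h3 | h3
      · right; right; left
        calc a = (t * t) * a := by rw [htt, one_mul]
          _ = t * (t * a) := by group
          _ = t := by rw [h3, mul_one]
      · right; right; right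
        calc a = (t * t) * a := by rw [htt, one_mul]
          _ = t * (t * a) := by group
          _ = t * z := by rw [h3]
  have hcard : Nat.card P ≤ 8 := by
    let f : Fin 2 × Fin 4 → P := fun ij =>
      (if ij.1 = 0 then 1 else x) *
        (if ij.2 = 0 then 1 else if ij.2 = 1 then z else if ij.2 = 2 then t else t * z)
    have hf : Function.Surjective f := by
      have hA' : ∀ a : P, a * t = t * a → ∃ j : Fin 4,
          (if j = 0 then 1 else if j = 1 then z else if j = 2 then t else t * z) = a := by
        intro a ha
        rcases hA4 a ha with h | h | h | h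
        · exact ⟨0, by simp [h]⟩
        · exact ⟨1, by simp [h]⟩
        · exact ⟨2, by simp [h]⟩
        · exact ⟨3, by simp [h]⟩
      intro p
      rcases hsplit p with h | h
      · obtain ⟨j, hj⟩ := hA' p h
        exact ⟨(0, j), by simp only [f]; rw [hj]; simp⟩
      · obtain ⟨j, hj⟩ := hA' _ h
        exact ⟨(1, j), by simp only [f]; rw [hj]; simp⟩
    have := Nat.card_le_card_of_surjective f hf
    simpa using this
  -- an involution s with t * s of order 4
  obtain ⟨s, hs, hts⟩ : ∃ s : P, orderOf s = 2 ∧ orderOf (t * s) = 4 := by
    have hx1 : x ≠ 1 := by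
      intro h; apply hx; rw [h]; group
    have ord4 : ∀ y : P, y * y = z → orderOf y = 4 := by
      intro y hy
      have h4 : y ^ 4 = 1 := by
        calc y ^ 4 = (y * y) * (y * y) := by simp only [pow_succ, pow_zero, one_mul, mul_assoc]
          _ = 1 := by rw [hy, hzz]
      have h2 : y ^ 2 ≠ 1 := by rw [sq, hy]; exact hz1
      exact orderOf_eq_prime_pow (p := 2) (n := 1) (by simpa using h2) (by simpa using h4)
    rcases hsq x with h | h
    · refine ⟨x, orderOf_eq_prime (by rw [sq]; exact h) hx1, ord4 _ ?_⟩
      calc t * x * (t * x) = t * (x * t) * x := by group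
        _ = t * (z * t * x) * x := by rw [hxt']
        _ = (t * z) * t * (x * x) := by group
        _ = z * (t * t) := by rw [hzc t, h]; group
        _ = z := by rw [htt, mul_one]
    · refine ⟨t * x, orderOf_eq_prime ?_ ?_, ?_⟩
      · rw [sq]
        calc t * x * (t * x) = t * (x * t) * x := by group
          _ = t * (z * t * x) * x := by rw [hxt']
          _ = (t * z) * t * (x * x) := by group
          _ = z * (t * t) * z := by rw [hzc t, h]; group
          _ = 1 := by rw [htt, mul_one, hzz]
      · intro h1
        have : x = t := by
          calc x = (t * t) * x := by rw [htt, one_mul]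
            _ = t * (t * x) := by group
            _ = t := by rw [h1, mul_one]
        apply hx; rw [this]; group
      · have : t * (t * x) = x := by rw [← mul_assoc, htt, one_mul]
        rw [this]; exact ord4 x h
  obtain ⟨e⟩ := Cfsg.Agent.Lib.Helper2.nonempty_closure_pair_mulEquiv_dihedral ht hs
  rw [hts] at e
  have htop : Subgroup.closure ({t, s} : Set P) = ⊤ := by
    apply Subgroup.eq_top_of_le_card
    rw [Nat.card_congr e.toEquiv, DihedralGroup.nat_card]
    omega
  exact ⟨(Subgroup.topEquiv.symm.trans (MulEquiv.subgroupCongr htop).symm).trans e⟩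

end Cfsg.Agent.H22
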