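import Mathlib
import Cfsg.Agent.Lib.Helper21.Frobenius
import Cfsg.Agent.Lib.Helper22.ClassSize

set_option autoImplicit false

namespace Cfsg.Agent.Lib.Helper22

open Subgroup

variable {G : Type*} [Group G]

theorem orderOf_eq_of_pow_prime_pow [Finite G] {p k : ℕ} (hp : p.Prime) {x c : G}
    (hx : x ^ (p ^ k) = c) (hpc : p ∣ orderOf c) : orderOf x = p ^ k * orderOf c := by
  have h1 := orderOf_pow' x (pow_ne_zero k hp.ne_zero)
  rw [hx] at h1
  obtain ⟨j, hj, hd⟩ := (Nat.dvd_prime_pow hp).mp (Nat.gcd_dvd_right (orderOf x) (p ^ k))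
  have hdvd : p ^ j ∣ orderOf x := hd ▸ Nat.gcd_dvd_left _ _
  rw [hd] at h1
  have h2 : orderOf x = p ^ j * orderOf c := by
    rw [h1]; exact (Nat.mul_div_cancel' hdvd).symm
  have hjk : j = k := by
    by_contra hne
    have hlt : j < k := lt_of_le_of_ne hj hne
    obtain ⟨m, hm⟩ := hpc
    have h3 : p ^ (j + 1) ∣ orderOf x := by
      rw [h2, hm, pow_succ]; exact ⟨m, by ring⟩
    have h4 : p ^ (j + 1) ∣ p ^ k := pow_dvd_pow p hlt
    have h5 : p ^ (j + 1) ∣ p ^ j := hd ▸ Nat.dvd_gcd h3 h4
    have := (Nat.pow_dvd_pow_iff_le_right hp.one_lt).mp h5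
    omega
  rw [h2, hjk]

/-- If `p` divides the order of `c`, the number of `p ^ k`-th roots of `c` is divisible by `p ^ k`. -/
theorem prime_pow_dvd_card_roots [Finite G] {p k : ℕ} (hp : p.Prime) (c : G) (hpc : p ∣ orderOf c) :
    p ^ k ∣ Nat.card {x : G // x ^ (p ^ k) = c} := by
  classical
  haveI : Fintype (Subgroup G) := Fintype.ofFinite _
  let π : {x : G // x ^ (p ^ k) = c} → Subgroup G := fun x => zpowers x.1
  rw [← Nat.card_congr (Equiv.sigmaFiberEquiv π), Nat.card_sigma]
  apply Finset.dvd_sum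
  intro Z _
  by_cases hne : Nonempty {x // π x = Z}
  swap
  · rw [not_nonempty_iff] at hne
    simp
  obtain ⟨⟨⟨x0, hx0⟩, hZ⟩⟩ := hne
  have hZ' : zpowers x0 = Z := hZ
  have hord0 := orderOf_eq_of_pow_prime_pow hp hx0 hpc
  have hcardZ : Nat.card Z = p ^ k * orderOf c := by rw [← hZ', Nat.card_zpowers, hord0]
  have hcomm : ∀ u ∈ Z, Commute x0 u := by
    intro u hu
    rw [← hZ'] at hu
    obtain ⟨j, rfl⟩ := mem_zpowers_iff.mp hu
    exact (Commute.refl x0).zpow_right j
  have hx0Z : x0 ∈ Z := hZ' ▸ mem_zpowers x0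
  have hmemZ : ∀ x : {x // π x = Z}, x.1.1 ∈ Z := by
    intro x
    have h' : zpowers x.1.1 = Z := x.2
    have h2 : x.1.1 ∈ zpowers x.1.1 := mem_zpowers x.1.1
    exact h'.le h2
  have e : {x // π x = Z} ≃ {u : Z // u ^ (p ^ k) = 1} :=
    { toFun := fun x => ⟨⟨x0⁻¹ * x.1.1, by
          have hx : x.1.1 ∈ Z := hmemZ x
          exact Z.mul_mem (Z.inv_mem hx0Z) hx⟩, by
          have hx : x.1.1 ∈ Z := hmemZ x
          apply Subtype.ext
          show (x0⁻¹ * x.1.1) ^ (p ^ k) = 1
          rw [((hcomm _ hx).inv_left).mul_pow, inv_pow, hx0, x.1.2, inv_mul_cancel]⟩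
      invFun := fun u => ⟨⟨x0 * u.1.1, by
          have hu : (u.1.1) ^ (p ^ k) = 1 := congrArg Subtype.val u.2
          rw [(hcomm _ u.1.2).mul_pow, hx0, hu, mul_one]⟩, by
          have hu : (u.1.1) ^ (p ^ k) = 1 := congrArg Subtype.val u.2
          have h1 : (x0 * u.1.1) ^ (p ^ k) = c := by
            rw [(hcomm _ u.1.2).mul_pow, hx0, hu, mul_one]
          show zpowers (x0 * u.1.1) = Z
          apply eq_of_le_of_card_ge
          · rw [zpowers_le]; exact Z.mul_mem hx0Z u.1.2
          · rw [Nat.card_zpowers, orderOf_eq_of_pow_prime_pow hp h1 hpc, hcardZ]⟩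
      left_inv := fun x => by
        apply Subtype.ext; apply Subtype.ext
        show x0 * (x0⁻¹ * x.1.1) = x.1.1
        group
      right_inv := fun u => by
        apply Subtype.ext; apply Subtype.ext
        show x0⁻¹ * (x0 * u.1.1) = u.1.1
        group }
  rw [Nat.card_congr e]
  exact Cfsg.Agent.Lib.Helper21.frobenius_aux _ Z rfl _ (hcardZ ▸ Dvd.intro _ rfl)

/-- If `p` does not divide the order of `c`, the `p ^ k`-th roots of `c` correspond to the solutions
of `z ^ (p ^ k) = 1` in the centralizer of `c`. -/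
theorem card_roots_of_coprime [Finite G] {q : ℕ} (c : G) (hq : q.Coprime (orderOf c)) :
    Nat.card {x : G // x ^ q = c} = Nat.card {z : centralizer ({c} : Set G) // z ^ q = 1} := by
  obtain ⟨s, hs⟩ := exists_pow_eq_self_of_coprime hq
  set c0 := c ^ s with hc0
  have hc0q : c0 ^ q = c := by rw [hc0, ← pow_mul, mul_comm, pow_mul]; exact hs
  apply Nat.card_congr
  exact
    { toFun := fun x => by
        have hxc : Commute x.1 c := by
          have h0 : Commute x.1 (x.1 ^ q) := (Commute.refl x.1).pow_right q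
          rwa [x.2] at h0
        have hxc0 : Commute c0 x.1 := (hxc.pow_right s).symm
        refine ⟨⟨c0⁻¹ * x.1, ?_⟩, ?_⟩
        · rw [mem_centralizer_singleton_iff]
          have h1 : Commute c0⁻¹ c := ((Commute.refl c).pow_left s).inv_left
          exact (h1.mul_left hxc)
        · apply Subtype.ext
          show (c0⁻¹ * x.1) ^ q = 1
          rw [(hxc0.inv_left).mul_pow, inv_pow, hc0q, x.2, inv_mul_cancel]
      invFun := fun z => by
        have hz : Commute (z.1 : G) c := by
          have := z.1.2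
          rwa [mem_centralizer_singleton_iff] at this
        have hz0 : Commute c0 (z.1 : G) := (hz.pow_right s).symm
        have hzq : (z.1 : G) ^ q = 1 := congrArg Subtype.val z.2
        exact ⟨c0 * z.1, by rw [hz0.mul_pow, hc0q, hzq, mul_one]⟩
      left_inv := fun x => by
        apply Subtype.ext
        show c0 * (c0⁻¹ * x.1) = x.1
        group
      right_inv := fun z => by
        apply Subtype.ext; apply Subtype.ext
        show c0⁻¹ * (c0 * (z.1 : G)) = z.1
        group }

theorem card_roots_conj (n : ℕ) {c y : G} (h : IsConj c y) :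
    Nat.card {x : G // x ^ n = y} = Nat.card {x : G // x ^ n = c} := by
  obtain ⟨g, rfl⟩ := isConj_iff.mp h
  apply Nat.card_congr
  exact
    { toFun := fun x => ⟨g⁻¹ * x.1 * g, by
        have := conj_pow (a := g⁻¹) (b := x.1) (i := n)
        rw [inv_inv] at this
        rw [this, x.2]; group⟩
      invFun := fun x => ⟨g * x.1 * g⁻¹, by rw [conj_pow, x.2]⟩
      left_inv := fun x => by apply Subtype.ext; show g * (g⁻¹ * x.1 * g) * g⁻¹ = x.1; group
      right_inv := fun x => by apply Subtype.ext; show g⁻¹ * (g * x.1 * g⁻¹) * g = x.1; group }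

theorem card_pow_conj [Finite G] (n : ℕ) (c : G) :
    Nat.card {x : G // IsConj c (x ^ n)} =
      Nat.card {y : G // IsConj c y} * Nat.card {x : G // x ^ n = c} := by
  classical
  haveI : Fintype {y : G // IsConj c y} := Fintype.ofFinite _
  have e : {x : G // IsConj c (x ^ n)} ≃ Σ y : {y : G // IsConj c y}, {x : G // x ^ n = y.1} :=
    { toFun := fun x => ⟨⟨x.1 ^ n, x.2⟩, ⟨x.1, rfl⟩⟩
      invFun := fun t => ⟨t.2.1, by rw [t.2.2]; exact t.1.2⟩
      left_inv := fun x => rfl
      right_inv := fun t => by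
        obtain ⟨⟨y, hy⟩, ⟨x, hx⟩⟩ := t
        have hx' : x ^ n = y := hx
        subst hx'
        rfl }
  rw [Nat.card_congr e, Nat.card_sigma,
    Finset.sum_congr rfl (fun y _ => card_roots_conj n y.2), Finset.sum_const, Finset.card_univ,
    smul_eq_mul, ← Nat.card_eq_fintype_card]

end Cfsg.Agent.Lib.Helper22
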