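import Mathlib
import Cfsg.Agent.S0144

set_option autoImplicit false

namespace Cfsg.Agent.Lib.Helper22

open Subgroup

/-- If `M` contains the normalizer of a Sylow `p`-subgroup then `|G : M| ≡ 1 mod p`. -/
theorem index_modEq_one_of_normalizer_le {G : Type*} [Group G] [Finite G] {p : ℕ} [Fact p.Prime]
    (P : Sylow p G) {M : Subgroup G} (hM : normalizer (P : Set G) ≤ M) :
    M.index ≡ 1 [MOD p] := by
  have hPM : (P : Subgroup G) ≤ M := le_normalizer.trans hM
  have h1 : (normalizer (P : Set G)).index ≡ 1 [MOD p] := by
    rw [← P.card_eq_index_normalizer]; exact card_sylow_modEq_one p G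
  have h2 : (normalizer (P : Set G)).relIndex M ≡ 1 [MOD p] := by
    have := (P.subtype hPM).card_eq_index_normalizer
    rw [← (P.subtype hPM).coe_coe, Sylow.coe_subtype, ← subgroupOf_normalizer_eq hPM] at this
    rw [relIndex, ← P.coe_coe, ← this]; exact card_sylow_modEq_one p M
  have h3 := relIndex_mul_index hM
  have h4 : (normalizer (P : Set G)).relIndex M * M.index ≡ 1 * M.index [MOD p] := h2.mul_right _
  rw [h3, one_mul] at h4
  exact h4.symm.trans h1

/-- Coatoms of a quotient pull back to coatoms. -/
theorem isCoatom_comap_mk' {G : Type*} [Group G] (N : Subgroup G) [N.Normal]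
    {M : Subgroup (G ⧸ N)} (hM : IsCoatom M) : IsCoatom (M.comap (QuotientGroup.mk' N)) := by
  have hsurj := QuotientGroup.mk'_surjective N
  refine ⟨fun h => hM.1 ?_, fun K hK => ?_⟩
  · rw [← map_comap_eq_self_of_surjective hsurj M, h, ← MonoidHom.range_eq_map,
      MonoidHom.range_eq_top.mpr hsurj]
  · have hNK : N ≤ K := by
      refine le_trans ?_ hK.le
      intro x hx
      rw [mem_comap]
      have : QuotientGroup.mk' N x = 1 := by simpa using hx
      rw [this]; exact one_mem _
    have hK2 : (K.map (QuotientGroup.mk' N)).comap (QuotientGroup.mk' N) = K := by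
      rw [comap_map_eq, QuotientGroup.ker_mk']; exact sup_eq_left.mpr hNK
    have h1 : M < K.map (QuotientGroup.mk' N) := by
      refine lt_of_le_of_ne ?_ ?_
      · rw [← map_comap_eq_self_of_surjective hsurj M]; exact map_mono hK.le
      · intro h; rw [← h] at hK2; exact hK.ne hK2
    have := hM.2 _ h1
    rw [← hK2, this, comap_top]

end Cfsg.Agent.Lib.Helper22
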