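import Mathlib

/-! A finite abelian group of odd order with two anticommuting "square roots of -1" has square
order. -/

set_option autoImplicit false

namespace Cfsg.Agent.Lib.Helper22

universe u

theorem isSquare_card_of_exponent_p {K : Type u} [AddCommGroup K] [Finite K] (p : ℕ)
    [Fact p.Prime] (hp2 : p ≠ 2) (hexp : ∀ x : K, p • x = 0) (α β : K →+ K)
    (hα : ∀ x, α (α x) = -x) (hβ : ∀ x, β (β x) = -x) (hαβ : ∀ x, α (β x) = -β (α x)) :
    IsSquare (Nat.card K) := by
  have hp : p.Prime := Fact.out
  obtain ⟨a', b', hab'⟩ := ZMod.sq_add_sq p (-1)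
  obtain ⟨a, rfl⟩ := ZMod.natCast_zmod_surjective a'
  obtain ⟨b, rfl⟩ := ZMod.natCast_zmod_surjective b'
  have hdvd : p ∣ a * a + b * b + 1 := by
    rw [← ZMod.natCast_eq_zero_iff]
    push_cast
    linear_combination hab'
  have hab : ∀ x : K, (a * a + b * b + 1) • x = 0 := by
    intro x
    obtain ⟨c, hc⟩ := hdvd
    rw [hc, mul_comm, mul_smul, hexp, smul_zero]
  have h1 : ∀ x, α (β (α x)) = β x := by
    intro x
    rw [hαβ, hα, map_neg, neg_neg]
  have h2 : ∀ x, β (α (β x)) = α x := by
    intro x
    have := hαβ (β x)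
    rw [hβ, map_neg] at this
    rw [← neg_inj, ← this]
  let u : K →+ K := a • α + b • β
  have hu : ∀ x, u x = a • α x + b • β x := fun x => rfl
  have huu : ∀ x, u (u x) = x := by
    intro x
    have := hab x
    simp only [hu, map_add, map_nsmul, hα, hβ, hαβ]
    linear_combination (norm := module) (-1 : ℤ) • this
  let γ : K →+ K := α.comp β
  have hγ : ∀ x, γ x = α (β x) := fun x => rfl
  have hγγ : ∀ x, γ (γ x) = -x := by
    intro x
    rw [hγ, hγ, h2, hα]
  have hγinj : Function.Injective γ := by
    intro x y hxy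
    have := congrArg γ hxy
    rwa [hγγ, hγγ, neg_inj] at this
  have hγu : ∀ x, u (γ x) = -γ (u x) := by
    intro x
    simp only [hu, hγ, map_add, map_nsmul, hα, hβ, h1, h2, map_neg]
    module
  let ψ : K →+ K := AddMonoidHom.id K + u
  have hψ : ∀ x, ψ x = x + u x := fun x => rfl
  have hrange : ∀ y, y ∈ ψ.range ↔ u y = y := by
    intro y
    constructor
    · rintro ⟨x, rfl⟩
      rw [hψ, map_add, huu, add_comm]
    · intro hy
      obtain ⟨c, hc⟩ : ∃ c, p + 1 = 2 * c := by
        have := hp.eq_two_or_odd'.resolve_left hp2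
        obtain ⟨k, hk⟩ := this
        exact ⟨k + 1, by omega⟩
      refine ⟨c • y, ?_⟩
      rw [hψ, map_nsmul, hy, ← two_nsmul, ← mul_smul, ← hc, add_smul, hexp, one_smul, zero_add]
  have hmap : ψ.ker.map γ = ψ.range := by
    ext y
    rw [hrange]
    constructor
    · rintro ⟨x, hx, rfl⟩
      have hx' : x + u x = 0 := hx
      have hux : u x = -x := eq_neg_of_add_eq_zero_right hx'
      rw [hγu, hux, map_neg, neg_neg]
    · intro hy
      refine ⟨γ (-y), ?_, ?_⟩
      · show γ (-y) + u (γ (-y)) = 0
        rw [hγu, map_neg u, hy, add_neg_cancel]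
      · rw [hγγ, neg_neg]
  have hcard : Nat.card K = Nat.card ψ.ker * Nat.card ψ.range := by
    rw [← AddSubgroup.index_ker, AddSubgroup.card_mul_index]
  rw [hcard, ← hmap, AddSubgroup.card_map_of_injective hγinj]
  exact ⟨_, rfl⟩

theorem isSquare_card_of_quaternion_action : ∀ (n : ℕ) (K : Type u) [AddCommGroup K] [Finite K],
    Nat.card K = n → Odd n → ∀ (α β : K →+ K), (∀ x, α (α x) = -x) → (∀ x, β (β x) = -x) →
    (∀ x, α (β x) = -β (α x)) → IsSquare n := by
  intro n
  induction n using Nat.strong_induction_on with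
  | _ n ih =>
    intro K _ _ hn hodd α β hα hβ hαβ
    by_cases h1 : n = 1
    · rw [h1]; exact ⟨1, rfl⟩
    set p := n.minFac with hpdef
    have hp : p.Prime := Nat.minFac_prime h1
    haveI : Fact p.Prime := ⟨hp⟩
    have hpn : p ∣ n := Nat.minFac_dvd n
    have hp2 : p ≠ 2 := by
      intro h
      rw [h] at hpn
      exact (Nat.not_even_iff_odd.mpr hodd) (even_iff_two_dvd.mpr hpn)
    let f : K →+ K := nsmulAddMonoidHom p
    have hf : ∀ x, f x = p • x := fun x => rfl
    have hcard : n = Nat.card f.ker * Nat.card f.range := by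
      rw [← AddSubgroup.index_ker, AddSubgroup.card_mul_index, hn]
    by_cases htop : f.ker = ⊤
    · rw [← hn]
      apply isSquare_card_of_exponent_p p hp2 _ α β hα hβ hαβ
      intro x
      have : x ∈ f.ker := htop ▸ AddSubgroup.mem_top x
      exact this
    · have hker1 : Nat.card f.ker ≠ 1 := by
        obtain ⟨x, hx⟩ := exists_prime_addOrderOf_dvd_card' (G := K) p (hn ▸ hpn)
        intro h
        have hbot := AddSubgroup.card_eq_one.mp h
        have hxk : x ∈ f.ker := by
          show p • x = 0
          rw [← hx]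
          exact addOrderOf_nsmul_eq_zero x
        rw [hbot, AddSubgroup.mem_bot] at hxk
        rw [hxk, addOrderOf_zero] at hx
        exact hp.one_lt.ne hx
      have hkerlt : Nat.card f.ker < n := by
        rw [← hn]
        have h2 : Nat.card f.ker ≤ Nat.card K :=
          Nat.le_of_dvd Nat.card_pos (AddSubgroup.card_addSubgroup_dvd_card _)
        rcases h2.lt_or_eq with h3 | h3
        · exact h3
        · exact absurd (AddSubgroup.eq_top_of_card_eq _ h3) htop
      have hpos1 : 0 < Nat.card f.ker := Nat.card_pos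
      have hpos2 : 0 < Nat.card f.range := Nat.card_pos
      have hrangelt : Nat.card f.range < n := by
        rw [hcard]
        have : 2 ≤ Nat.card f.ker := by omega
        nlinarith
      have hodd1 : Odd (Nat.card f.ker) := by
        rw [hcard] at hodd
        exact (Nat.odd_mul.mp hodd).1
      have hodd2 : Odd (Nat.card f.range) := by
        rw [hcard] at hodd
        exact (Nat.odd_mul.mp hodd).2
      have hk : ∀ (δ : K →+ K) (x : K), x ∈ f.ker → δ x ∈ f.ker := by
        intro δ x hx
        show p • δ x = 0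
        rw [← map_nsmul, show p • x = 0 from hx, map_zero]
      have hr : ∀ (δ : K →+ K) (x : K), x ∈ f.range → δ x ∈ f.range := by
        rintro δ _ ⟨y, rfl⟩
        exact ⟨δ y, by rw [hf, hf, map_nsmul]⟩
      have s1 := ih _ hkerlt f.ker rfl hodd1
        ((α.comp f.ker.subtype).codRestrict f.ker (fun x => hk α x x.2))
        ((β.comp f.ker.subtype).codRestrict f.ker (fun x => hk β x x.2))
        (fun x => Subtype.ext (hα x)) (fun x => Subtype.ext (hβ x)) (fun x => Subtype.ext (hαβ x))
      have s2 := ih _ hrangelt f.range rfl hodd2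
        ((α.comp f.range.subtype).codRestrict f.range (fun x => hr α x x.2))
        ((β.comp f.range.subtype).codRestrict f.range (fun x => hr β x x.2))
        (fun x => Subtype.ext (hα x)) (fun x => Subtype.ext (hβ x)) (fun x => Subtype.ext (hαβ x))
      rw [hcard]
      exact s1.mul s2

theorem isSquare_card_of_quaternion_conj {L : Type u} [Group L] [Finite L] (N : Subgroup L)
    [N.Normal] (hcomm : ∀ x ∈ N, ∀ y ∈ N, x * y = y * x) (hodd : Odd (Nat.card N)) (i j s : L)
    (hi : i * i = s) (hj : j * j = s) (hij : i * j = j * i⁻¹)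
    (hs : ∀ k ∈ N, s * k * s⁻¹ = k⁻¹) : IsSquare (Nat.card N) := by
  letI : CommGroup N :=
    { (inferInstance : Group N) with
      mul_comm := fun x y => Subtype.ext (hcomm x x.2 y y.2) }
  let α : Additive N →+ Additive N := (MulAut.conjNormal i : N ≃* N).toMonoidHom.toAdditive
  let β : Additive N →+ Additive N := (MulAut.conjNormal j : N ≃* N).toMonoidHom.toAdditive
  have hαv : ∀ x : Additive N, ((α x).toMul : L) = i * (x.toMul : L) * i⁻¹ := fun x => rfl
  have hβv : ∀ x : Additive N, ((β x).toMul : L) = j * (x.toMul : L) * j⁻¹ := fun x => rfl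
  have hnv : ∀ x : Additive N, (((-x : Additive N)).toMul : L) = (x.toMul : L)⁻¹ := fun x => rfl
  have hext : ∀ x y : Additive N, ((x.toMul : N) : L) = ((y.toMul : N) : L) → x = y := by
    intro x y h
    exact congrArg Additive.ofMul (Subtype.ext h)
  have hs' : ∀ k ∈ N, s⁻¹ * k * s = k⁻¹ := by
    intro k hk
    have h1 : s⁻¹ * k * s ∈ N := by
      have := (inferInstance : N.Normal).conj_mem k hk s⁻¹
      rwa [inv_inv] at this
    have h2 := hs _ h1
    have h3 : s * (s⁻¹ * k * s) * s⁻¹ = k := by group
    rw [h3] at h2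
    exact inv_eq_iff_eq_inv.mp h2.symm
  have := isSquare_card_of_quaternion_action (Nat.card N) (Additive N) rfl hodd α β
    (by
      intro x
      apply hext
      rw [hαv, hαv, hnv, ← hs _ x.toMul.2, ← hi]
      group)
    (by
      intro x
      apply hext
      rw [hβv, hβv, hnv, ← hs _ x.toMul.2, ← hj]
      group)
    (by
      intro x
      apply hext
      rw [hαv, hβv, hnv, hβv, hαv]
      have e1 : i * j = j * i * s⁻¹ := by
        rw [hij, ← hi]
        group
      have e2 : i * (j * (x.toMul : L) * j⁻¹) * i⁻¹ =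
          (i * j) * (x.toMul : L) * (i * j)⁻¹ := by group
      rw [e2, e1]
      have e3 : j * i * s⁻¹ * (x.toMul : L) * (j * i * s⁻¹)⁻¹ =
          j * i * (s⁻¹ * (x.toMul : L) * s) * i⁻¹ * j⁻¹ := by group
      rw [e3, hs' _ x.toMul.2]
      group)
  exact this

end Cfsg.Agent.Lib.Helper22
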