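import Mathlib
import Cfsg.Agent.Lib.Helper22.QuatSquare
import Cfsg.Agent.Lib.Helper22.FrobKernel
import Cfsg.Agent.S0035
import Cfsg.Agent.S0039
import Cfsg.Agent.S0068

/-! Frobenius kernels for complements containing a quaternion pair have odd square order. -/

set_option autoImplicit false

namespace Cfsg.Agent.Lib.Helper22

open Subgroup

universe u

theorem odd_isSquare_card_frobeniusKernel {L : Type u} [Group L] [Finite L] (H : Subgroup L)
    (hF : Cfsg.IsFrobeniusComplement H) (i j : L) (hiH : i ∈ H) (hij2 : i * i = j * j)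
    (ho : orderOf (i * i) = 2) (hij : i * j = j * i⁻¹) :
    Odd (Nat.card (Cfsg.frobeniusKernel H)) ∧ IsSquare (Nat.card (Cfsg.frobeniusKernel H)) := by
  obtain ⟨N, hNk, hNn, hc⟩ := Cfsg.Agent.S0035.result H hF
  haveI := hNn
  have hcardN : Nat.card (Cfsg.frobeniusKernel H) = Nat.card N := by
    rw [← hNk]
    rfl
  have hN1 : N ≠ ⊥ := by
    intro h
    have h1 := hc.index_eq_card
    rw [h, Subgroup.card_bot, Subgroup.index_eq_one] at h1
    exact hF.2.1 h1
  have hfpf := (Cfsg.Agent.S0039.result N H hc hN1 hF.1).mp hF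
  have heven : 2 ∣ Nat.card H := by
    have h1 : orderOf (⟨i * i, H.mul_mem hiH hiH⟩ : H) = 2 := by
      rw [Subgroup.orderOf_mk]; exact ho
    rw [← h1]
    exact orderOf_dvd_natCard _
  obtain ⟨⟨s, hsH, hs2, huniq, hinv⟩, hcomm⟩ := Cfsg.Agent.S0068.result N H hc hN1 hfpf heven
  have his : i * i = s := huniq _ (H.mul_mem hiH hiH) ho
  have hodd : Odd (Nat.card (Cfsg.frobeniusKernel H)) := by
    rw [card_frobeniusKernel hF]
    have h1 := heven.trans (IsFrobeniusComplement.card_dvd_index_sub_one hF)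
    have h2 : 0 < H.index := Nat.pos_of_ne_zero (Subgroup.index_ne_zero_of_finite)
    obtain ⟨c, hc'⟩ := h1
    exact ⟨c, by omega⟩
  refine ⟨hodd, ?_⟩
  rw [hcardN] at hodd ⊢
  exact isSquare_card_of_quaternion_conj N
    (fun x hx y hy => congrArg Subtype.val (hcomm.is_comm.comm ⟨x, hx⟩ ⟨y, hy⟩)) hodd i j s his
    (hij2 ▸ his) hij hinv

theorem odd_isSquare_of_quaternion_embedding {L : Type u} [Group L] [Finite L] (H : Subgroup L)
    (hF : Cfsg.IsFrobeniusComplement H) (k : ℕ) (hk : 0 < k) (ι : QuaternionGroup (2 * k) →* L)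
    (hι : Function.Injective ι) (hH : ∀ g, ι g ∈ H) :
    Odd (Nat.card (Cfsg.frobeniusKernel H)) ∧ IsSquare (Nat.card (Cfsg.frobeniusKernel H)) := by
  apply odd_isSquare_card_frobeniusKernel H hF (ι (QuaternionGroup.a k)) (ι (QuaternionGroup.xa 0))
    (hH _)
  · rw [← map_mul, ← map_mul, QuaternionGroup.a_mul_a, QuaternionGroup.xa_mul_xa]
    congr 2
    push_cast
    ring
  · rw [← map_mul, orderOf_injective ι hι, QuaternionGroup.a_mul_a]
    apply orderOf_eq_prime
    · rw [pow_two, QuaternionGroup.a_mul_a, QuaternionGroup.one_def]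
      congr 1
      have h1 : ((2 * (2 * k) : ℕ) : ZMod (2 * (2 * k))) = 0 := ZMod.natCast_self _
      push_cast at h1
      linear_combination h1
    · rw [QuaternionGroup.one_def]
      intro h
      have h1 : (k : ZMod (2 * (2 * k))) + k = 0 := QuaternionGroup.a.inj h
      have h2 : ((2 * k : ℕ) : ZMod (2 * (2 * k))) = 0 := by
        push_cast
        linear_combination h1
      rw [ZMod.natCast_eq_zero_iff] at h2
      have := Nat.le_of_dvd (by omega) h2
      omega
  · rw [← map_inv, ← map_mul, ← map_mul]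
    congr 1
    have hinv : (QuaternionGroup.a (k : ZMod (2 * (2 * k))))⁻¹ = QuaternionGroup.a (-(k : ZMod (2 * (2 * k)))) := by
      rw [inv_eq_iff_mul_eq_one, QuaternionGroup.a_mul_a, add_neg_cancel, QuaternionGroup.a_zero]
    rw [hinv, QuaternionGroup.a_mul_xa, QuaternionGroup.xa_mul_a, zero_sub, zero_add]

end Cfsg.Agent.Lib.Helper22
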