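import Mathlib

/-! Homomorphisms out of the (generalised) quaternion groups. -/

set_option autoImplicit false

namespace Cfsg.Agent.Lib.Helper22

open QuaternionGroup

variable {M : Type*} [Group M] {n : ℕ}

/-- `i ↦ A ^ i` on `ZMod (2 * n)`. -/
noncomputable def qExp (A : M) (hA : A ^ (2 * n) = 1) : ZMod (2 * n) →+ Additive M :=
  ZMod.lift (2 * n) ⟨zmultiplesHom (Additive M) (Additive.ofMul A), by
    rw [zmultiplesHom_apply, natCast_zsmul, ← ofMul_pow, hA, ofMul_one]⟩

theorem qExp_intCast (A : M) (hA : A ^ (2 * n) = 1) (k : ℤ) :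
    (qExp A hA (k : ZMod (2 * n))).toMul = A ^ k := by
  unfold qExp
  rw [ZMod.lift_coe]
  simp [zmultiplesHom_apply]

theorem qExp_natCast (A : M) (hA : A ^ (2 * n) = 1) (k : ℕ) :
    (qExp A hA (k : ZMod (2 * n))).toMul = A ^ k := by
  have := qExp_intCast A hA (k : ℤ)
  simpa using this

theorem qExp_comm (A X : M) (hA : A ^ (2 * n) = 1) (hAX : A * X = X * A⁻¹) (i : ZMod (2 * n)) :
    (qExp A hA i).toMul * X = X * (qExp A hA (-i)).toMul := by
  obtain ⟨k, rfl⟩ := ZMod.intCast_surjective i
  rw [← Int.cast_neg, qExp_intCast, qExp_intCast]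
  have h1 : X⁻¹ * A * X = A⁻¹ := by rw [mul_assoc, hAX]; group
  have h2 : X⁻¹ * A ^ k * X = (A⁻¹) ^ k := by
    rw [← h1]
    have := conj_zpow (a := X⁻¹) (b := A) (i := k)
    rw [inv_inv] at this
    exact this.symm
  rw [zpow_neg, ← inv_zpow, ← h2]
  group

/-- The homomorphism from `QuaternionGroup n` determined by images of the generators. -/
noncomputable def quatLift (A X : M) (hA : A ^ (2 * n) = 1) (hX : X * X = A ^ n)
    (hAX : A * X = X * A⁻¹) : QuaternionGroup n →* M where
  toFun g := match g with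
    | a i => (qExp A hA i).toMul
    | xa i => X * (qExp A hA i).toMul
  map_one' := by
    rw [one_def]
    show (qExp A hA 0).toMul = 1
    rw [map_zero, toMul_zero]
  map_mul' := by
    rintro (i | i) (j | j)
    · rw [a_mul_a]
      show (qExp A hA (i + j)).toMul = (qExp A hA i).toMul * (qExp A hA j).toMul
      rw [map_add, toMul_add]
    · rw [a_mul_xa]
      show X * (qExp A hA (j - i)).toMul = (qExp A hA i).toMul * (X * (qExp A hA j).toMul)
      rw [← mul_assoc, qExp_comm A X hA hAX, mul_assoc, ← toMul_add, ← map_add, neg_add_eq_sub]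
    · rw [xa_mul_a]
      show X * (qExp A hA (i + j)).toMul = X * (qExp A hA i).toMul * (qExp A hA j).toMul
      rw [map_add, toMul_add, mul_assoc]
    · rw [xa_mul_xa]
      show (qExp A hA ((n : ZMod (2 * n)) + j - i)).toMul =
        X * (qExp A hA i).toMul * (X * (qExp A hA j).toMul)
      rw [mul_assoc, ← mul_assoc _ X, qExp_comm A X hA hAX, mul_assoc, ← mul_assoc X X, hX,
        ← toMul_add, ← map_add, ← qExp_natCast A hA n, ← toMul_add, ← map_add]
      congr 2
      ring

theorem quatLift_a (A X : M) (hA : A ^ (2 * n) = 1) (hX : X * X = A ^ n)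
    (hAX : A * X = X * A⁻¹) (k : ℕ) : quatLift A X hA hX hAX (a k) = A ^ k :=
  qExp_natCast A hA k

theorem quatLift_xa_zero (A X : M) (hA : A ^ (2 * n) = 1) (hX : X * X = A ^ n)
    (hAX : A * X = X * A⁻¹) : quatLift A X hA hX hAX (xa 0) = X := by
  show X * (qExp A hA 0).toMul = X
  rw [map_zero, toMul_zero, mul_one]

end Cfsg.Agent.Lib.Helper22
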