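import Mathlib
import Cfsg.Prelude.Def_PLocal

/-! Basic theory of regular `p`-groups (P. Hall). -/

set_option autoImplicit false

namespace Cfsg.Agent.Lib.Helper22

open Subgroup
open scoped commutatorElement

universe u

/-- If the commutator of `a` and `b` lies in a normal subgroup `W`, so does the derived subgroup
of `⟨a, b⟩`. -/
theorem commutator_closure_pair_le {G : Type*} [Group G] (W : Subgroup G) [W.Normal] (a b : G)
    (h : ⁅a, b⁆ ∈ W) :
    ⁅Subgroup.closure ({a, b} : Set G), Subgroup.closure ({a, b} : Set G)⁆ ≤ W := by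
  rw [Subgroup.commutator_le]
  intro x hx y hy
  have hab : (QuotientGroup.mk' W a) * (QuotientGroup.mk' W b)
      = (QuotientGroup.mk' W b) * (QuotientGroup.mk' W a) := by
    have h1 : QuotientGroup.mk' W ⁅a, b⁆ = 1 := (QuotientGroup.eq_one_iff _).2 h
    rw [map_commutatorElement, commutatorElement_eq_one_iff_mul_comm] at h1
    exact h1
  have hcomm : ∀ s ∈ ({QuotientGroup.mk' W a, QuotientGroup.mk' W b} : Set (G ⧸ W)),
      ∀ t ∈ ({QuotientGroup.mk' W a, QuotientGroup.mk' W b} : Set (G ⧸ W)), s * t = t * s := by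
    rintro s (rfl | rfl) t (rfl | rfl)
    · rfl
    · exact hab
    · exact hab.symm
    · rfl
  have hmem : ∀ z ∈ Subgroup.closure ({a, b} : Set G), QuotientGroup.mk' W z ∈
      Subgroup.closure ({QuotientGroup.mk' W a, QuotientGroup.mk' W b} : Set (G ⧸ W)) := by
    intro z hz
    have := Subgroup.mem_map_of_mem (QuotientGroup.mk' W) hz
    rw [MonoidHom.map_closure, Set.image_pair] at this
    exact this
  have hc := Subgroup.isMulCommutative_closure hcomm
  have h2 := hc.is_comm.comm ⟨_, hmem x hx⟩ ⟨_, hmem y hy⟩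
  have h3 : QuotientGroup.mk' W x * QuotientGroup.mk' W y
      = QuotientGroup.mk' W y * QuotientGroup.mk' W x := congrArg Subtype.val h2
  have h4 : QuotientGroup.mk' W ⁅x, y⁆ = 1 := by
    rw [map_commutatorElement, commutatorElement_eq_one_iff_mul_comm]
    exact h3
  exact (QuotientGroup.eq_one_iff _).1 h4

/-- `powerClosure` commutes with injective (indeed all) maps. -/
theorem powerClosure_map {G H : Type*} [Group G] [Group H] (f : G →* H) (p n : ℕ)
    (K : Subgroup G) :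
    (Cfsg.powerClosure p n K).map f = Cfsg.powerClosure p n (K.map f) := by
  unfold Cfsg.powerClosure
  rw [MonoidHom.map_closure]
  congr 1
  ext y
  constructor
  · rintro ⟨_, ⟨x, hx, rfl⟩, rfl⟩
    exact ⟨f x, Subgroup.mem_map_of_mem _ hx, by simp⟩
  · rintro ⟨_, ⟨x, hx, rfl⟩, rfl⟩
    exact ⟨x ^ p ^ n, ⟨x, hx, rfl⟩, by simp⟩

/-- Regularity passes to subgroups. -/
theorem IsRegularPGroup.subgroup {G : Type*} [Group G] {p : ℕ}
    (hG : Cfsg.IsRegularPGroup p G) (H : Subgroup G) : Cfsg.IsRegularPGroup p H := by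
  refine ⟨hG.1.to_subgroup H, ?_⟩
  intro a b n
  obtain ⟨c, hc, hc'⟩ := hG.2 (a : G) (b : G) n
  have h1 : (Subgroup.closure ({(a : G), (b : G)} : Set G))
      = (Subgroup.closure ({a, b} : Set H)).map H.subtype := by
    rw [MonoidHom.map_closure, Set.image_pair]
    rfl
  rw [h1, ← Subgroup.map_commutator, ← powerClosure_map] at hc
  obtain ⟨c', hc1, rfl⟩ := hc
  refine ⟨c', hc1, ?_⟩
  apply Subtype.ext
  simpa using hc'

/-- In a finite `p`-group, a proper subgroup lies in a proper normal subgroup. -/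
theorem exists_normal_ne_top_of_ne_top {G : Type*} [Group G] [Finite G] {p : ℕ} [Fact p.Prime]
    (hG : IsPGroup p G) (H : Subgroup G) (hH : H ≠ ⊤) :
    ∃ M : Subgroup G, M.Normal ∧ M ≠ ⊤ ∧ H ≤ M := by
  obtain h | ⟨M, hM, hle⟩ := eq_top_or_exists_le_coatom H
  · exact absurd h hH
  · haveI := hG.isNilpotent
    exact ⟨M, Group.normalizerCondition_of_isNilpotent.normal_of_coatom M hM, hM.1, hle⟩

theorem commute_of_zpowers_eq_top {G : Type*} [Group G] (a b : G)
    (h : Subgroup.zpowers a = ⊤) : Commute a b := by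
  have hb : b ∈ Subgroup.zpowers a := h ▸ Subgroup.mem_top b
  obtain ⟨k, rfl⟩ := Subgroup.mem_zpowers_iff.1 hb
  exact (Commute.refl a).zpow_right k

theorem eq_one_of_mem_powerClosure {G : Type*} [Group G] (p n : ℕ) (K : Subgroup G)
    (h : ∀ x ∈ K, x ^ p ^ n = 1) (c : G) (hc : c ∈ Cfsg.powerClosure p n K) : c = 1 := by
  have : Cfsg.powerClosure p n K ≤ ⊥ := by
    unfold Cfsg.powerClosure
    rw [Subgroup.closure_le]
    rintro y ⟨x, hx, rfl⟩
    exact h x hx
  exact this hc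

theorem mul_pow_eq_one_aux (p : ℕ) [Fact p.Prime] (k : ℕ) :
    ∀ (m : ℕ) (G : Type u) [Group G] [Finite G], Nat.card G = m → Cfsg.IsRegularPGroup p G →
      ∀ a b : G, a ^ p ^ k = 1 → b ^ p ^ k = 1 → (a * b) ^ p ^ k = 1 := by
  intro m
  induction m using Nat.strong_induction_on with
  | _ m ih =>
  intro G _ _ hm hG a b ha hb
  by_cases hza : Subgroup.zpowers a = ⊤
  · rw [(commute_of_zpowers_eq_top a b hza).mul_pow, ha, hb, one_mul]
  · obtain ⟨M, hMn, hMtop, haM⟩ := exists_normal_ne_top_of_ne_top hG.1 _ hza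
    have hlt : Nat.card M < m := by
      rw [← hm]
      by_contra hcon
      exact hMtop (Subgroup.eq_top_of_le_card M (not_lt.1 hcon))
    let W : Subgroup G :=
      { carrier := {x | x ∈ M ∧ x ^ p ^ k = 1}
        mul_mem' := by
          rintro x y ⟨hx, hx1⟩ ⟨hy, hy1⟩
          refine ⟨M.mul_mem hx hy, ?_⟩
          have := ih _ hlt M rfl (IsRegularPGroup.subgroup hG M) ⟨x, hx⟩ ⟨y, hy⟩
            (Subtype.ext (by simpa using hx1)) (Subtype.ext (by simpa using hy1))
          simpa using congrArg Subtype.val this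
        one_mem' := ⟨M.one_mem, one_pow _⟩
        inv_mem' := by
          rintro x ⟨hx, hx1⟩
          exact ⟨M.inv_mem hx, by rw [inv_pow, hx1, inv_one]⟩ }
    have hWn : W.Normal := by
      constructor
      rintro x ⟨hx, hx1⟩ g
      exact ⟨hMn.conj_mem x hx g, by rw [conj_pow, hx1]; simp⟩
    have haW : a ∈ W := ⟨haM (Subgroup.mem_zpowers a), ha⟩
    have hcW : ⁅a, b⁆ ∈ W := by
      rw [commutatorElement_def, mul_assoc, mul_assoc, ← mul_assoc b]
      exact W.mul_mem haW (hWn.conj_mem _ (W.inv_mem haW) b)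
    have hle := commutator_closure_pair_le W a b hcW
    obtain ⟨c, hc, hc'⟩ := hG.2 a b k
    have hc1 := eq_one_of_mem_powerClosure p k _ (fun x hx => (hle hx).2) c hc
    rw [hc', ha, hb, hc1]
    simp

/-- In a regular `p`-group a product of two elements of order dividing `p ^ k` has order
dividing `p ^ k`. -/
theorem IsRegularPGroup.mul_pow_eq_one {G : Type u} [Group G] [Finite G] {p : ℕ} [Fact p.Prime]
    (hG : Cfsg.IsRegularPGroup p G) (k : ℕ) {a b : G} (ha : a ^ p ^ k = 1) (hb : b ^ p ^ k = 1) :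
    (a * b) ^ p ^ k = 1 :=
  mul_pow_eq_one_aux p k _ G rfl hG a b ha hb

/-- `Ω_k` of a regular `p`-group. -/
def regOmega {G : Type u} [Group G] [Finite G] {p : ℕ} [Fact p.Prime]
    (hG : Cfsg.IsRegularPGroup p G) (k : ℕ) : Subgroup G where
  carrier := {x | x ^ p ^ k = 1}
  mul_mem' := fun hx hy => IsRegularPGroup.mul_pow_eq_one hG k hx hy
  one_mem' := one_pow _
  inv_mem' := fun {x} hx => by
    show x⁻¹ ^ p ^ k = 1
    rw [inv_pow, show x ^ p ^ k = 1 from hx, inv_one]

theorem mem_regOmega {G : Type u} [Group G] [Finite G] {p : ℕ} [Fact p.Prime]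
    (hG : Cfsg.IsRegularPGroup p G) (k : ℕ) (x : G) : x ∈ regOmega hG k ↔ x ^ p ^ k = 1 :=
  Iff.rfl

instance regOmega_characteristic {G : Type u} [Group G] [Finite G] {p : ℕ} [Fact p.Prime]
    (hG : Cfsg.IsRegularPGroup p G) (k : ℕ) : (regOmega hG k).Characteristic := by
  rw [Subgroup.characteristic_iff_le_comap]
  intro φ x hx
  rw [Subgroup.mem_comap, mem_regOmega]
  rw [mem_regOmega] at hx
  show (φ x) ^ p ^ k = 1
  rw [← map_pow, hx, map_one]

theorem pow_eq_pow_aux (p : ℕ) [Fact p.Prime] (k : ℕ) :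
    ∀ (m : ℕ) (G : Type u) [Group G] [Finite G], Nat.card G = m → Cfsg.IsRegularPGroup p G →
      ∀ a b : G, a ^ p ^ k = b ^ p ^ k → (a * b⁻¹) ^ p ^ k = 1 := by
  intro m
  induction m using Nat.strong_induction_on with
  | _ m ih =>
  intro G _ _ hm hG a b hab
  by_cases hza : Subgroup.zpowers a = ⊤
  · rw [(commute_of_zpowers_eq_top a b⁻¹ hza).mul_pow, hab, inv_pow, mul_inv_cancel]
  · obtain ⟨M, hMn, hMtop, haM⟩ := exists_normal_ne_top_of_ne_top hG.1 _ hza
    have hlt : Nat.card M < m := by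
      rw [← hm]
      by_contra hcon
      exact hMtop (Subgroup.eq_top_of_le_card M (not_lt.1 hcon))
    have haM' : a ∈ M := haM (Subgroup.mem_zpowers a)
    have hconj : b⁻¹ * a * b ∈ M := by
      have := hMn.conj_mem a haM' b⁻¹
      simpa using this
    have hpow : a ^ p ^ k = (b⁻¹ * a * b) ^ p ^ k := by
      have h1 : (b⁻¹ * a * b) ^ p ^ k = b⁻¹ * a ^ p ^ k * b := by
        have := conj_pow (a := b⁻¹) (b := a) (i := p ^ k)
        simpa using this
      rw [h1, hab]
      group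
    have h2 := ih _ hlt M rfl (IsRegularPGroup.subgroup hG M) ⟨a, haM'⟩ ⟨_, hconj⟩
      (Subtype.ext (by simpa using hpow))
    have h3 : (a * (b⁻¹ * a * b)⁻¹) ^ p ^ k = 1 := by
      simpa using congrArg Subtype.val h2
    have hcW : ⁅a, b⁻¹⁆ ∈ regOmega hG k := by
      rw [mem_regOmega, ← h3]
      congr 1
      rw [commutatorElement_def]
      group
    have hle := commutator_closure_pair_le (regOmega hG k) a b⁻¹ hcW
    obtain ⟨c, hc, hc'⟩ := hG.2 a b⁻¹ k
    have hc1 := eq_one_of_mem_powerClosure p k _ (fun x hx => hle hx) c hc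
    rw [hc', hab, hc1, inv_pow]
    simp

/-- In a regular `p`-group, `a ^ q = b ^ q ↔ (a b⁻¹) ^ q = 1`, for `q = p ^ k`. -/
theorem IsRegularPGroup.pow_eq_pow_iff {G : Type u} [Group G] [Finite G] {p : ℕ} [Fact p.Prime]
    (hG : Cfsg.IsRegularPGroup p G) (k : ℕ) (a b : G) :
    a ^ p ^ k = b ^ p ^ k ↔ (a * b⁻¹) ^ p ^ k = 1 := by
  constructor
  · exact pow_eq_pow_aux p k _ G rfl hG a b
  · intro h
    have hcW : ⁅a * b⁻¹, b⁆ ∈ regOmega hG k := by
      rw [commutatorElement_def, mul_assoc, mul_assoc, ← mul_assoc b]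
      have h1 : a * b⁻¹ ∈ regOmega hG k := h
      exact (regOmega hG k).mul_mem h1
        ((inferInstance : (regOmega hG k).Normal).conj_mem _ ((regOmega hG k).inv_mem h1) b)
    have hle := commutator_closure_pair_le (regOmega hG k) (a * b⁻¹) b hcW
    obtain ⟨c, hc, hc'⟩ := hG.2 (a * b⁻¹) b k
    have hc1 := eq_one_of_mem_powerClosure p k _ (fun x hx => hle hx) c hc
    rw [h, hc1] at hc'
    simpa using hc'

/-- In a regular `p`-group, `a ^ q` commutes with `b` iff `[a, b] ^ q = 1`. -/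
theorem IsRegularPGroup.pow_commute_iff {G : Type u} [Group G] [Finite G] {p : ℕ} [Fact p.Prime]
    (hG : Cfsg.IsRegularPGroup p G) (k : ℕ) (a b : G) :
    a ^ p ^ k * b = b * a ^ p ^ k ↔ (a⁻¹ * b⁻¹ * a * b) ^ p ^ k = 1 := by
  have h1 := IsRegularPGroup.pow_eq_pow_iff hG k a⁻¹ (b⁻¹ * a⁻¹ * b)
  have e1 : a⁻¹ * (b⁻¹ * a⁻¹ * b)⁻¹ = a⁻¹ * b⁻¹ * a * b := by group
  rw [e1] at h1
  rw [← h1]
  have e2 : (b⁻¹ * a⁻¹ * b) ^ p ^ k = b⁻¹ * (a ^ p ^ k)⁻¹ * b := by
    have := conj_pow (a := b⁻¹) (b := a⁻¹) (i := p ^ k)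
    simpa using this
  rw [e2, inv_pow]
  constructor
  · intro h
    have : (a ^ p ^ k)⁻¹ * b = b * (a ^ p ^ k)⁻¹ := by
      rw [inv_mul_eq_iff_eq_mul, ← mul_assoc, h, mul_assoc, mul_inv_cancel, mul_one]
    rw [mul_assoc, this, ← mul_assoc, inv_mul_cancel, one_mul]
  · intro h
    have h2 : b * (a ^ p ^ k)⁻¹ = (a ^ p ^ k)⁻¹ * b := by
      conv_lhs => rw [h]
      group
    rw [eq_comm, ← inv_mul_eq_iff_eq_mul, ← mul_assoc, ← h2, mul_assoc, inv_mul_cancel, mul_one]

end Cfsg.Agent.Lib.Helper22
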