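import Mathlib
import Cfsg.Agent.H25.RootSet
import Cfsg.Agent.S5025
import Cfsg.Agent.S5028
import Cfsg.Agent.Lib.Helper22.PolarP1
import Cfsg.Agent.Lib.Helper13.CardSup

set_option autoImplicit false

/-! Abstract root subgroups: the commutator case `C = [A,B] ∈ Σ` for a non-isolated `A`. -/

namespace Cfsg.Agent.H22.Root

open Cfsg Cfsg.Agent.H25

variable {G : Type*} [Group G] {S : Set (Subgroup G)} {A B : Subgroup G}

theorem conj_mem_comm_left {a c : G} (ha : a ∈ A) (hc : c ∈ ⁅A, B⁆) : a * c * a⁻¹ ∈ ⁅A, B⁆ := by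
  have h : ⁅A, B⁆ ≤ conjBy ⁅A, B⁆ a⁻¹ := by
    rw [Subgroup.commutator_le]
    intro a' ha' b hb
    rw [mem_conjBy, inv_inv, commutatorElement_def]
    have e : a * (a' * b * a'⁻¹ * b⁻¹) * a⁻¹
        = ((a * a') * b * (a * a')⁻¹ * b⁻¹) * (a * b * a⁻¹ * b⁻¹)⁻¹ := by group
    rw [e]
    exact mul_mem (commutator_mem (A.mul_mem ha ha') hb) (inv_mem (commutator_mem ha hb))
  have := h hc
  rwa [mem_conjBy, inv_inv] at this

theorem conj_mem_comm_right {b c : G} (hb : b ∈ B) (hc : c ∈ ⁅A, B⁆) : b * c * b⁻¹ ∈ ⁅A, B⁆ := by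
  rw [Subgroup.commutator_comm] at hc ⊢
  exact conj_mem_comm_left hb hc

theorem sup_le_normalizer_comm :
    A ⊔ B ≤ Subgroup.normalizer ((⁅A, B⁆ : Subgroup G) : Set G) := by
  apply sup_le
  · intro a ha
    rw [Subgroup.mem_normalizer_iff]
    intro c
    refine ⟨fun hc => conj_mem_comm_left ha hc, fun hc => ?_⟩
    have := conj_mem_comm_left (A.inv_mem ha) hc
    simpa [mul_assoc] using this
  · intro b hb
    rw [Subgroup.mem_normalizer_iff]
    intro c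
    refine ⟨fun hc => conj_mem_comm_right hb hc, fun hc => ?_⟩
    have := conj_mem_comm_right (B.inv_mem hb) hc
    simpa [mul_assoc] using this

theorem comm_case (hS : IsRootSubgroupSet S) (hA : A ∈ S) (hB : B ∈ S) (hC : ⁅A, B⁆ ∈ S) :
    RootCommutatorCase S A B := by
  rcases hS.pair A hA B hB with h | hp | h
  · exact absurd h (hS.ne_bot _ hC)
  · exfalso
    obtain ⟨a, ha, ha1⟩ := RankOne.exists_ne_one hp
    obtain ⟨b, hb, hb1⟩ := RankOne.exists_ne_one (RankOnePair_symm hp)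
    have hnc := RankOne.commutator_not_comm hp ha ha1 hb hb1
    have hN : ⁅A, B⁆ ≤ A ⊔ B := by
      rw [Subgroup.commutator_le]
      intro x hx y hy
      rw [commutatorElement_def]
      exact mul_mem (mul_mem (mul_mem (Subgroup.mem_sup_left hx) (Subgroup.mem_sup_right hy))
        (inv_mem (Subgroup.mem_sup_left hx))) (inv_mem (Subgroup.mem_sup_right hy))
    have hnorm : ∀ x ∈ A ⊔ B, ∀ n ∈ ⁅A, B⁆, x * n * x⁻¹ ∈ ⁅A, B⁆ := fun x hx n hn =>
      (Subgroup.mem_normalizer_iff.1 (sup_le_normalizer_comm hx) n).1 hn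
    rcases RankOne.normal_dichotomy hp hN hnorm with hd | hd
    · rcases hS.pair A hA _ hC with h | h | h
      · have hcen : ⁅A, B⁆ ⊔ A ≤ Subgroup.centralizer (A : Set G) := by
          apply sup_le
          · intro c hc
            rw [Subgroup.mem_centralizer_iff]
            intro x hx
            exact comm_of_commutator_eq_bot h hx hc
          · intro y hy
            rw [Subgroup.mem_centralizer_iff]
            intro x hx
            exact Root.comm hS hA hx hy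
        have hbc : b ∈ Subgroup.centralizer (A : Set G) := by
          apply hcen
          rw [hd]
          exact Subgroup.mem_sup_right hb
        exact RankOne.not_comm hp ha ha1 hb hb1 (Subgroup.mem_centralizer_iff.1 hbc a ha)
      · obtain ⟨c, hc, hc1, hAc⟩ := h.cond_left a ha ha1
        have h1 : conjBy ⁅A, B⁆ a⁻¹ = ⁅A, B⁆ :=
          conjBy_eq_self_iff.2 (sup_le_normalizer_comm (Subgroup.mem_sup_left (A.inv_mem ha)))
        rw [h1, conjBy_eq_iff, inv_inv, conjBy_of_mem hc] at hAc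
        exact h.ne hAc
      · have hbm : b ∈ A ⊔ ⁅A, B⁆ := by
          rw [sup_comm, hd]; exact Subgroup.mem_sup_right hb
        obtain ⟨a₁, ha₁, c₁, hc₁, hbe⟩ := Cfsg.Agent.Lib.Helper13.mem_sup_of_le_normalizer
          (H := A) (N := ⁅A, B⁆) (le_sup_left.trans sup_le_normalizer_comm) hbm
        have hz : a * c₁ * a⁻¹ * c₁⁻¹ ∈ ⁅A, ⁅A, B⁆⁆ := commutator_mem ha hc₁
        have hz1 := h.2.1 _ hz a₁ (Subgroup.mem_sup_left ha₁)
        have hz2 := h.2.1 _ hz b hbm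
        have haa : a * a₁ = a₁ * a := Root.comm hS hA ha ha₁
        have e : a * b * a⁻¹ * b⁻¹ = a * c₁ * a⁻¹ * c₁⁻¹ := by
          have e1 : a * b * a⁻¹ * b⁻¹ = (a * a₁) * c₁ * a⁻¹ * c₁⁻¹ * a₁⁻¹ := by
            rw [hbe]; group
          have e2 : (a₁ * a) * c₁ * a⁻¹ * c₁⁻¹ * a₁⁻¹ = a₁ * (a * c₁ * a⁻¹ * c₁⁻¹) * a₁⁻¹ := by
            group
          rw [e1, haa, e2, ← hz1]; group
        rw [e] at hnc
        exact hnc hz2
    · exact hnc (hd _ (commutator_mem ha hb) b (Subgroup.mem_sup_right hb))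
  · exact h

theorem psi_mem {a b : G} (ha : a ∈ A) (hb : b ∈ B) : a⁻¹ * b⁻¹ * a * b ∈ ⁅A, B⁆ := by
  have := commutator_mem (A.inv_mem ha) (B.inv_mem hb)
  simpa using this

theorem nonisolated_of_partner {A F : Subgroup G} (hA : A ∈ S) (hF : F ∈ S)
    (hp : IsRankOnePair A F) : ¬ IsIsolatedIn (FAdj S) S A :=
  fun h => (h.2 F).1 ⟨hA, hF, hp⟩

theorem nonisolated_conj (hS : IsRootSubgroupSet S) (hA : ¬ IsIsolatedIn (FAdj S) S A)
    (hAS : A ∈ S) (g : G) : ¬ IsIsolatedIn (FAdj S) S (conjBy A g) := by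
  obtain ⟨F, hF, hp⟩ := Root.exists_partner hA hAS
  exact nonisolated_of_partner (hS.conj_mem A hAS g) (hS.conj_mem F hF g) (RankOne.conj hp g)

theorem exists_iso (hS : IsRootSubgroupSet S) (hA : ¬ IsIsolatedIn (FAdj S) S A) (hAS : A ∈ S)
    (h : RootCommutatorCase S A B) {a : G} (ha : a ∈ A) (ha1 : a ≠ 1) :
    ∃ φ : ↥B ≃* ↥⁅A, B⁆, ∀ b : ↥B, (φ b : G) = a⁻¹ * (b : G)⁻¹ * a * b := by
  let ψ : ↥B →* ↥(⁅A, B⁆ : Subgroup G) := MonoidHom.mk'
    (fun b => ⟨a⁻¹ * (b : G)⁻¹ * a * b, psi_mem ha b.2⟩) (by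
      intro b b'
      apply Subtype.ext
      have hz := h.2.1 _ (psi_mem ha b.2) (b' : G) (Subgroup.mem_sup_right b'.2)
      have hm : a⁻¹ * (b' : G)⁻¹ * a * b' ∈ A ⊔ B :=
        mul_mem (mul_mem (mul_mem (Subgroup.mem_sup_left (A.inv_mem ha))
          (Subgroup.mem_sup_right (B.inv_mem b'.2))) (Subgroup.mem_sup_left ha))
          (Subgroup.mem_sup_right b'.2)
      have hz2 := h.2.1 _ (psi_mem ha b.2) _ hm
      show a⁻¹ * ((b * b' : B) : G)⁻¹ * a * ((b * b' : B) : G)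
        = (a⁻¹ * (b : G)⁻¹ * a * b) * (a⁻¹ * (b' : G)⁻¹ * a * b')
      calc a⁻¹ * ((b * b' : B) : G)⁻¹ * a * ((b * b' : B) : G)
          = a⁻¹ * (b' : G)⁻¹ * a * ((a⁻¹ * (b : G)⁻¹ * a * b) * b') := by
            rw [Subgroup.coe_mul]; group
        _ = a⁻¹ * (b' : G)⁻¹ * a * (b' * (a⁻¹ * (b : G)⁻¹ * a * b)) := by rw [hz]
        _ = (a⁻¹ * (b' : G)⁻¹ * a * b') * (a⁻¹ * (b : G)⁻¹ * a * b) := by group
        _ = (a⁻¹ * (b : G)⁻¹ * a * b) * (a⁻¹ * (b' : G)⁻¹ * a * b') := hz2.symm)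
  have hψ : ∀ b : B, ((ψ b : ↥(⁅A, B⁆ : Subgroup G)) : G) = a⁻¹ * (b : G)⁻¹ * a * b := fun b => rfl
  have hinj : Function.Injective ψ := by
    rw [injective_iff_map_eq_one]
    intro b hb
    by_contra hb1
    have hb1' : (b : G) ≠ 1 := fun e => hb1 (Subtype.ext e)
    have hval : a⁻¹ * (b : G)⁻¹ * a * b = 1 := by
      rw [← hψ b, hb]; rfl
    have hab : a * b = b * a := by
      have : a * (b : G) = b * a * (a⁻¹ * (b : G)⁻¹ * a * b) := by group
      rw [this, hval, mul_one]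
    have hmem : a ∈ conjBy A (b : G) := by
      rw [mem_conjBy]
      have : (b : G)⁻¹ * a * b = a := by
        rw [mul_assoc, hab]; group
      rw [this]; exact ha
    rcases Cfsg.Agent.S5028.result hS hA hAS (conjBy A (b : G)) (hS.conj_mem A hAS b) with h0 | h0
    · have : a ∈ A ⊓ conjBy A (b : G) := ⟨ha, hmem⟩
      rw [h0] at this
      exact ha1 (Subgroup.mem_bot.1 this)
    · apply RootComm.false_of_right_comm hS h b.2 hb1'
      intro a' ha'
      have hx : a' * (b : G) * a'⁻¹ * (b : G)⁻¹ ∈ ⁅A, B⁆ := commutator_mem ha' b.2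
      have hxA : a' * (b : G) * a'⁻¹ * (b : G)⁻¹ ∈ A := by
        have h2 : (b : G) * a'⁻¹ * (b : G)⁻¹ ∈ A := by
          rw [h0]; exact conj_mem_conjBy (A.inv_mem ha') b
        have : a' * (b : G) * a'⁻¹ * (b : G)⁻¹ = a' * ((b : G) * a'⁻¹ * (b : G)⁻¹) := by group
        rw [this]; exact A.mul_mem ha' h2
      have h1 := RootComm.eq_one_of_mem_left hS h hx hxA
      have : a' * (b : G) = (a' * (b : G) * a'⁻¹ * (b : G)⁻¹) * (b * a') := by group
      rw [this, h1, one_mul]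
  have hsurj : Function.Surjective ψ := by
    intro c
    have hgen := h.2.2.1 a⁻¹ (A.inv_mem ha) (inv_ne_one.2 ha1)
    have hle : Subgroup.closure ((fun b : G => a⁻¹ * b * a⁻¹⁻¹ * b⁻¹) '' (B : Set G))
        ≤ (ψ.range).map (⁅A, B⁆).subtype := by
      rw [Subgroup.closure_le]
      rintro _ ⟨b, hb, rfl⟩
      refine ⟨ψ ⟨b⁻¹, B.inv_mem hb⟩, ⟨_, rfl⟩, ?_⟩
      show ((ψ ⟨b⁻¹, B.inv_mem hb⟩ : ↥(⁅A, B⁆ : Subgroup G)) : G) = a⁻¹ * b * a⁻¹⁻¹ * b⁻¹
      rw [hψ]; simp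
    have hc : (c : G) ∈ (ψ.range).map (⁅A, B⁆).subtype := hle (by rw [hgen]; exact c.2)
    obtain ⟨_, ⟨b, rfl⟩, hb⟩ := hc
    exact ⟨b, Subtype.ext hb⟩
  exact ⟨MulEquiv.ofBijective ψ ⟨hinj, hsurj⟩, fun b => rfl⟩

theorem cmAC (h : RootCommutatorCase S A B) : Cfsg.Agent.H22.Cm A ⁅A, B⁆ :=
  fun a ha c hc => (h.2.1 c hc a (Subgroup.mem_sup_left ha)).symm

theorem cover (hS : IsRootSubgroupSet S) (hA : ¬ IsIsolatedIn (FAdj S) S A) (hAS : A ∈ S)
    (h : RootCommutatorCase S A B) {a c : G} (ha : a ∈ A) (ha1 : a ≠ 1) (hc : c ∈ ⁅A, B⁆) :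
    ∃ b ∈ B, a * c ∈ conjBy A b := by
  obtain ⟨φ, hφ⟩ := exists_iso hS hA hAS h ha ha1
  obtain ⟨b₀, hb₀⟩ := φ.surjective ⟨c, hc⟩
  refine ⟨(b₀ : G)⁻¹, B.inv_mem b₀.2, ?_⟩
  rw [mem_conjBy, inv_inv]
  have hc' : c = a⁻¹ * (b₀ : G)⁻¹ * a * b₀ := by
    rw [← hφ b₀, hb₀]
  have : (b₀ : G) * (a * c) * (b₀ : G)⁻¹ = a := by
    rw [hc']; group
  rw [this]; exact ha

theorem conjBy_le {b : G} (hb : b ∈ B) :
    conjBy A b ≤ A ⊔ ⁅A, B⁆ := by
  rintro _ ⟨a, ha, rfl⟩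
  have : (MulAut.conj b).toMonoidHom a = a * (a⁻¹ * b * a⁻¹⁻¹ * b⁻¹) := by
    simp [MulAut.conj_apply, mul_assoc]
  rw [this]
  exact mul_mem (Subgroup.mem_sup_left ha)
    (Subgroup.mem_sup_right (commutator_mem (A.inv_mem ha) hb))

end Cfsg.Agent.H22.Root
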