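import Mathlib
import Cfsg.Agent.Lib.Helper22.Root1

set_option autoImplicit false

/-! Abstract root subgroups: the line `AC`, `C = [A,B]`, for a non-isolated `A`. -/

namespace Cfsg.Agent.H22.Root

open Cfsg Cfsg.Agent.H25

variable {G : Type*} [Group G] {S : Set (Subgroup G)} {A B : Subgroup G}

theorem not_central_F (hS : IsRootSubgroupSet S) (hA : ¬ IsIsolatedIn (FAdj S) S A) (hAS : A ∈ S)
    (h : RootCommutatorCase S A B) {F : Subgroup G} (hF : F ∈ S) (hp : IsRankOnePair A F)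
    {c : G} (hc : c ∈ ⁅A, B⁆) (hc1 : c ≠ 1) : ¬ ∀ f ∈ F, c * f = f * c := by
  intro hcf
  obtain ⟨a, ha, ha1⟩ := RankOne.exists_ne_one hp
  have hle : A ⊔ F ≤ Subgroup.centralizer ({c} : Set G) := by
    apply sup_le
    · intro x hx
      rw [Subgroup.mem_centralizer_iff]
      intro y hy
      rw [Set.mem_singleton_iff.1 hy]
      exact h.2.1 c hc x (Subgroup.mem_sup_left hx)
    · intro x hx
      rw [Subgroup.mem_centralizer_iff]
      intro y hy
      rw [Set.mem_singleton_iff.1 hy]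
      exact hcf x hx
  have hz : c ∈ Subgroup.centralizer ((A ⊔ F : Subgroup G) : Set G) := by
    rw [Subgroup.mem_centralizer_iff]
    intro x hx
    exact (Subgroup.mem_centralizer_iff.1 (hle hx) c rfl).symm
  apply Cfsg.Agent.S5025.result hS hAS ⟨hF, hp⟩ hz hc1 a ha ha1
  obtain ⟨b, hb, hm⟩ := cover hS hA hAS h ha ha1 hc
  have hca : c * a = a * c := h.2.1 c hc a (Subgroup.mem_sup_left ha)
  refine ⟨?_, conjBy A b, hS.conj_mem A hAS b, ?_⟩
  · intro e
    apply ha1
    apply RootComm.eq_one_of_mem_left hS h _ ha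
    have : a = c⁻¹ := by
      rw [eq_inv_iff_mul_eq_one, ← hca]; exact e
    rw [this]; exact inv_mem hc
  · rw [hca]; exact hm

theorem eq_of_le_comm (hS : IsRootSubgroupSet S) (hA : ¬ IsIsolatedIn (FAdj S) S A) (hAS : A ∈ S)
    (h : RootCommutatorCase S A B) {E : Subgroup G} (hE : E ∈ S) (hEC : E ≤ ⁅A, B⁆) :
    E = ⁅A, B⁆ := by
  obtain ⟨F, hF, hp⟩ := Root.exists_partner hA hAS
  have hFn : ¬ IsIsolatedIn (FAdj S) S F := nonisolated_of_partner hF hAS (RankOnePair_symm hp)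
  have hCS : ⁅A, B⁆ ∈ S := h.1
  obtain ⟨e, he, he1⟩ := Root.exists_ne_one hS hE
  rcases hS.pair F hF _ hCS with h1 | h1 | h1
  · exfalso
    exact not_central_F hS hA hAS h hF hp (hEC he) he1
      (fun f hf => (comm_of_commutator_eq_bot h1 hf (hEC he)).symm)
  · have hCn := nonisolated_of_partner hCS hF (RankOnePair_symm h1)
    rcases Cfsg.Agent.S5028.result hS hCn hCS E hE with h2 | h2
    · exfalso
      have : e ∈ ⁅A, B⁆ ⊓ E := ⟨hEC he, he⟩
      rw [h2] at this
      exact he1 (Subgroup.mem_bot.1 this)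
    · exact h2.symm
  · rcases hS.pair F hF E hE with h2 | h2 | h2
    · exfalso
      exact not_central_F hS hA hAS h hF hp (hEC he) he1
        (fun f hf => (comm_of_commutator_eq_bot h2 hf he).symm)
    · have hEn := nonisolated_of_partner hE hF (RankOnePair_symm h2)
      rcases Cfsg.Agent.S5028.result hS hEn hE _ hCS with h3 | h3
      · exfalso
        have : e ∈ E ⊓ ⁅A, B⁆ := ⟨he, hEC he⟩
        rw [h3] at this
        exact he1 (Subgroup.mem_bot.1 this)
      · exact h3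
    · have heq : ⁅F, E⁆ = ⁅F, ⁅A, B⁆⁆ := by
        rw [← h2.2.2.2 e he he1, ← h1.2.2.2 e (hEC he) he1]
      obtain ⟨f, hf, hf1⟩ := Root.exists_ne_one hS hF
      obtain ⟨φ1, hφ1⟩ := exists_iso hS hFn hF h1 hf hf1
      obtain ⟨φ2, hφ2⟩ := exists_iso hS hFn hF h2 hf hf1
      apply le_antisymm hEC
      intro c hc
      have hm : ((φ1 ⟨c, hc⟩ : ↥(⁅F, ⁅A, B⁆⁆ : Subgroup G)) : G) ∈ ⁅F, E⁆ := by
        rw [heq]; exact (φ1 ⟨c, hc⟩).2
      obtain ⟨e', he'⟩ := φ2.surjective ⟨_, hm⟩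
      have h3 : φ1 ⟨c, hc⟩ = φ1 ⟨e', hEC e'.2⟩ := by
        apply Subtype.ext
        rw [hφ1 ⟨e', hEC e'.2⟩]
        have := hφ2 e'
        rw [he'] at this
        exact this
      have h4 := φ1.injective h3
      have hce : c = e' := congrArg Subtype.val h4
      rw [hce]; exact e'.2

theorem members_eq (hS : IsRootSubgroupSet S) (hA : ¬ IsIsolatedIn (FAdj S) S A) (hAS : A ∈ S)
    (h : RootCommutatorCase S A B) :
    membersIn S (A ⊔ ⁅A, B⁆) = (fun b : G => conjBy A b) '' (B : Set G) ∪ {⁅A, B⁆} := by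
  ext E
  constructor
  · rintro ⟨hE, hEle⟩
    by_cases hEC : E ≤ ⁅A, B⁆
    · right
      exact eq_of_le_comm hS hA hAS h hE hEC
    · left
      obtain ⟨e, he, heC⟩ := SetLike.not_le_iff_exists.1 hEC
      obtain ⟨a, ha, c, hc, rfl⟩ := Cfsg.Agent.H22.mem_sup_of_cm (cmAC h) (hEle he)
      have ha1 : a ≠ 1 := by
        rintro rfl
        apply heC
        simpa using hc
      obtain ⟨b, hb, hm⟩ := cover hS hA hAS h ha ha1 hc
      refine ⟨b, hb, ?_⟩
      rcases Cfsg.Agent.S5028.result hS (nonisolated_conj hS hA hAS b) (hS.conj_mem A hAS b) E hE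
        with h0 | h0
      · exfalso
        have : a * c ∈ conjBy A b ⊓ E := ⟨hm, he⟩
        rw [h0] at this
        apply heC
        rw [Subgroup.mem_bot.1 this]
        exact one_mem _
      · exact h0
  · rintro (⟨b, hb, rfl⟩ | hE)
    · exact ⟨hS.conj_mem A hAS b, conjBy_le hb⟩
    · rw [Set.mem_singleton_iff.1 hE]
      exact ⟨h.1, le_sup_right⟩

theorem partition (hS : IsRootSubgroupSet S) (hA : ¬ IsIsolatedIn (FAdj S) S A) (hAS : A ∈ S)
    (h : RootCommutatorCase S A B) :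
    IsSubgroupPartition (A ⊔ ⁅A, B⁆) (membersIn S (A ⊔ ⁅A, B⁆)) := by
  refine ⟨fun C hC => hC.2, ?_, ?_⟩
  · intro x hx hx1
    obtain ⟨a, ha, c, hc, rfl⟩ := Cfsg.Agent.H22.mem_sup_of_cm (cmAC h) hx
    by_cases ha1 : a = 1
    · exact ⟨⁅A, B⁆, ⟨h.1, le_sup_right⟩, by simpa [ha1] using hc⟩
    · obtain ⟨b, hb, hm⟩ := cover hS hA hAS h ha ha1 hc
      exact ⟨conjBy A b, ⟨hS.conj_mem A hAS b, conjBy_le hb⟩, hm⟩
  · intro T hT T' hT' hne
    have hTS := hT.1
    have hT'S := hT'.1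
    rw [members_eq hS hA hAS h] at hT hT'
    rcases hT with ⟨b, hb, rfl⟩ | hT
    · exact (Cfsg.Agent.S5028.result hS (nonisolated_conj hS hA hAS b) hTS T' hT'S).resolve_right hne
    · rcases hT' with ⟨b, hb, rfl⟩ | hT'
      · rw [inf_comm]
        exact (Cfsg.Agent.S5028.result hS (nonisolated_conj hS hA hAS b) hT'S T hTS).resolve_right
          (Ne.symm hne)
      · exact absurd ((Set.mem_singleton_iff.1 hT).trans (Set.mem_singleton_iff.1 hT').symm) hne

theorem line_partner (hS : IsRootSubgroupSet S) (hA : ¬ IsIsolatedIn (FAdj S) S A) (hAS : A ∈ S)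
    (h : RootCommutatorCase S A B) : A ∈ linePartners S ⁅A, B⁆ := by
  refine ⟨⟨hAS, ?_, ?_⟩, ?_⟩
  · intro e
    obtain ⟨a, ha, ha1⟩ := Root.exists_ne_one hS hAS
    apply ha1
    apply RootComm.eq_one_of_mem_left hS h _ ha
    rw [← e]; exact ha
  · exact commutator_eq_bot_of_comm (fun c hc a ha => h.2.1 c hc a (Subgroup.mem_sup_left ha))
  · rw [sup_comm]
    exact partition hS hA hAS h

end Cfsg.Agent.H22.Root
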