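import Mathlib
import Cfsg.Agent.Lib.Helper22.Root2

set_option autoImplicit false

/-! Abstract root subgroups: the configuration `B ∈ Ψ_A`, `C ∈ Ψ_B`, `[A,C] = 1`. -/

namespace Cfsg.Agent.H22.Root

open Cfsg Cfsg.Agent.H25 Cfsg.Agent.H22

variable {G : Type*} [Group G] {S : Set (Subgroup G)} {A B C : Subgroup G}

theorem RootComm_symm (h : RootCommutatorCase S A B) : RootCommutatorCase S B A := by
  have e : ⁅B, A⁆ = ⁅A, B⁆ := Subgroup.commutator_comm B A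
  refine ⟨by rw [e]; exact h.1, ?_, ?_, ?_⟩
  · intro c hc x hx
    rw [e] at hc
    rw [sup_comm] at hx
    exact h.2.1 c hc x hx
  · intro b hb hb1
    rw [e, ← h.2.2.2 b hb hb1]
    apply le_antisymm
    · rw [Subgroup.closure_le]
      rintro _ ⟨a, ha, rfl⟩
      have : b * a * b⁻¹ * a⁻¹ = (a * b * a⁻¹ * b⁻¹)⁻¹ := by group
      show b * a * b⁻¹ * a⁻¹ ∈ _
      rw [this]
      exact inv_mem (Subgroup.subset_closure ⟨a, ha, rfl⟩)
    · rw [Subgroup.closure_le]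
      rintro _ ⟨a, ha, rfl⟩
      have : a * b * a⁻¹ * b⁻¹ = (b * a * b⁻¹ * a⁻¹)⁻¹ := by group
      show a * b * a⁻¹ * b⁻¹ ∈ _
      rw [this]
      exact inv_mem (Subgroup.subset_closure ⟨a, ha, rfl⟩)
  · intro a ha ha1
    rw [e, ← h.2.2.1 a ha ha1]
    apply le_antisymm
    · rw [Subgroup.closure_le]
      rintro _ ⟨b, hb, rfl⟩
      have : b * a * b⁻¹ * a⁻¹ = (a * b * a⁻¹ * b⁻¹)⁻¹ := by group
      show b * a * b⁻¹ * a⁻¹ ∈ _
      rw [this]
      exact inv_mem (Subgroup.subset_closure ⟨b, hb, rfl⟩)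
    · rw [Subgroup.closure_le]
      rintro _ ⟨b, hb, rfl⟩
      have : a * b * a⁻¹ * b⁻¹ = (b * a * b⁻¹ * a⁻¹)⁻¹ := by group
      show a * b * a⁻¹ * b⁻¹ ∈ _
      rw [this]
      exact inv_mem (Subgroup.subset_closure ⟨b, hb, rfl⟩)

/-- an element commuting with `P` and `Q` commutes with `⁅P,Q⁆`. -/
theorem comm_commutator {P Q : Subgroup G} {c : G} (hP : ∀ p ∈ P, c * p = p * c)
    (hQ : ∀ q ∈ Q, c * q = q * c) : ∀ k ∈ ⁅P, Q⁆, c * k = k * c := by
  have h : ⁅P, Q⁆ ≤ Subgroup.centralizer ({c} : Set G) := by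
    rw [Subgroup.commutator_le]
    intro p hp q hq
    rw [Subgroup.mem_centralizer_iff, commutatorElement_def]
    intro y hy
    rw [Set.mem_singleton_iff.1 hy]
    have h1 : Commute c p := hP p hp
    have h2 : Commute c q := hQ q hq
    exact (((h1.mul_right h2).mul_right h1.inv_right).mul_right h2.inv_right)
  intro k hk
  exact Subgroup.mem_centralizer_iff.1 (h hk) c rfl

theorem cm_sup_right {P Q R : Subgroup G} (h1 : Cm P Q) (h2 : Cm P R) : Cm P (Q ⊔ R) :=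
  (Cm.sup_left h1.symm h2.symm).symm

theorem cm_self (hS : IsRootSubgroupSet S) (hA : A ∈ S) : Cm A A :=
  fun _ hx _ hy => Root.comm hS hA hx hy

theorem cm_mono {P Q P' Q' : Subgroup G} (h : Cm P Q) (h1 : P' ≤ P) (h2 : Q' ≤ Q) : Cm P' Q' :=
  fun x hx y hy => h x (h1 hx) y (h2 hy)

theorem cm_conj {P Q : Subgroup G} (h : Cm P Q) (g : G) : Cm (conjBy P g) (conjBy Q g) := by
  rintro _ ⟨p, hp, rfl⟩ _ ⟨q, hq, rfl⟩
  have := h p hp q hq
  simp only [MulEquiv.coe_toMonoidHom, MulAut.conj_apply]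
  calc g * p * g⁻¹ * (g * q * g⁻¹) = g * (p * q) * g⁻¹ := by group
    _ = g * (q * p) * g⁻¹ := by rw [this]
    _ = g * q * g⁻¹ * (g * p * g⁻¹) := by group

/-- `A` commutes with `A ⊔ [A,B]`. -/
theorem cm_A_AL (hS : IsRootSubgroupSet S) (hA : A ∈ S) (h : RootCommutatorCase S A B) :
    Cm A (A ⊔ ⁅A, B⁆) := cm_sup_right (cm_self hS hA) (cmAC h)

theorem conjBy_le' {b : G} (hb : b ∈ B) : conjBy C b ≤ C ⊔ ⁅B, C⁆ := by
  rw [Subgroup.commutator_comm]; exact conjBy_le hb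

/-- the pair `(A, M)`, `M = [B,C]`, is never a rank one pair. -/
theorem pairAM (hS : IsRootSubgroupSet S) (hA : A ∈ S) (hC : C ∈ S)
    (hBC : RootCommutatorCase S B C) (hAC : Cm A C) (hB : B ∈ S) :
    ⁅A, ⁅B, C⁆⁆ = ⊥ ∨ RootCommutatorCase S A ⁅B, C⁆ := by
  rcases hS.pair A hA _ hBC.1 with h | hp | h
  · exact Or.inl h
  · exfalso
    obtain ⟨b, hb, hb1⟩ := Root.exists_ne_one hS hB
    have hex : ∃ c ∈ C, b * c ≠ c * b := by
      by_contra hcon
      push Not at hcon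
      exact RootComm.false_of_left_comm hS hBC hb hb1 hcon
    obtain ⟨c, hc, hbc⟩ := hex
    have hc1 : c ≠ 1 := by
      rintro rfl; simp at hbc
    have hm : c⁻¹ * b⁻¹ * c * b ∈ ⁅B, C⁆ := by
      rw [Subgroup.commutator_comm]; exact psi_mem hc hb
    have hm1 : c⁻¹ * b⁻¹ * c * b ≠ 1 := by
      intro e
      apply hbc
      have : b * c = c * b * (c⁻¹ * b⁻¹ * c * b)⁻¹ := by group
      rw [this, e]; simp
    have hz : c ∈ Subgroup.centralizer ((⁅B, C⁆ ⊔ A : Subgroup G) : Set G) := by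
      have hle : ⁅B, C⁆ ⊔ A ≤ Subgroup.centralizer ({c} : Set G) := by
        apply sup_le
        · intro x hx
          rw [Subgroup.mem_centralizer_iff]
          intro y hy
          rw [Set.mem_singleton_iff.1 hy]
          exact (hBC.2.1 x hx c (Subgroup.mem_sup_right hc)).symm
        · intro x hx
          rw [Subgroup.mem_centralizer_iff]
          intro y hy
          rw [Set.mem_singleton_iff.1 hy]
          exact (hAC x hx c hc).symm
      rw [Subgroup.mem_centralizer_iff]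
      intro x hx
      exact (Subgroup.mem_centralizer_iff.1 (hle hx) c rfl).symm
    apply Cfsg.Agent.S5025.result hS hBC.1 ⟨hA, RankOnePair_symm hp⟩ hz hc1 _ hm hm1
    refine ⟨?_, conjBy C b⁻¹, hS.conj_mem C hC _, ?_⟩
    · intro e
      apply hc1
      have : c * (c⁻¹ * b⁻¹ * c * b) = b⁻¹ * c * b := by group
      rw [this] at e
      have h2 : c = b * (b⁻¹ * c * b) * b⁻¹ := by group
      rw [h2, e]; simp
    · rw [mem_conjBy, inv_inv]
      have : b * (c * (c⁻¹ * b⁻¹ * c * b)) * b⁻¹ = c := by group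
      rw [this]; exact hc
  · exact Or.inr h

/-- `[A,M]` is central in `A ⊔ M ⊔ C`, in the weak form we need. -/
theorem K_comm (hS : IsRootSubgroupSet S) (hA : A ∈ S) (hC : C ∈ S)
    (hBC : RootCommutatorCase S B C) (hAC : Cm A C) (hB : B ∈ S) :
    ∀ k ∈ ⁅A, ⁅B, C⁆⁆, (∀ a ∈ A, k * a = a * k) ∧ (∀ m ∈ ⁅B, C⁆, k * m = m * k) ∧
      (∀ c ∈ C, k * c = c * k) := by
  intro k hk
  have h3 : ∀ c ∈ C, k * c = c * k := by
    intro c hc
    exact (comm_commutator (fun p hp => (hAC p hp c hc).symm)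
      (fun q hq => (hBC.2.1 q hq c (Subgroup.mem_sup_right hc)).symm) k hk).symm
  rcases pairAM hS hA hC hBC hAC hB with h | h
  · rw [h] at hk
    rw [Subgroup.mem_bot.1 hk]
    simp
  · exact ⟨fun a ha => h.2.1 k hk a (Subgroup.mem_sup_left ha),
      fun m hm => h.2.1 k hk m (Subgroup.mem_sup_right hm), h3⟩

theorem not_rankOne_AC1 (hS : IsRootSubgroupSet S) (hA : A ∈ S) (hC : C ∈ S)
    (hBC : RootCommutatorCase S B C) (hAC : Cm A C) (hB : B ∈ S) {g : G} (hg : g ∈ B) :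
    ¬ IsRankOnePair A (conjBy C g) := by
  intro hp
  obtain ⟨a, ha, ha1⟩ := RankOne.exists_ne_one hp
  obtain ⟨y, hy, hy1⟩ := RankOne.exists_ne_one (RankOnePair_symm hp)
  have hcm : Cm C ⁅B, C⁆ := fun c hc m hm => (hBC.2.1 m hm c (Subgroup.mem_sup_right hc)).symm
  obtain ⟨c, hc, m, hm, rfl⟩ := mem_sup_of_cm hcm (conjBy_le' hg hy)
  have hk : a * m * a⁻¹ * m⁻¹ ∈ ⁅A, ⁅B, C⁆⁆ := commutator_mem ha hm
  obtain ⟨-, hkm, hkc⟩ := K_comm hS hA hC hBC hAC hB _ hk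
  have hac := hAC a ha c hc
  have e : a * (c * m) * a⁻¹ * (c * m)⁻¹ = a * m * a⁻¹ * m⁻¹ := by
    have e1 : a * (c * m) * a⁻¹ * (c * m)⁻¹ = (a * c) * m * a⁻¹ * m⁻¹ * c⁻¹ := by group
    have e2 : (c * a) * m * a⁻¹ * m⁻¹ * c⁻¹ = c * (a * m * a⁻¹ * m⁻¹) * c⁻¹ := by group
    rw [e1, hac, e2, ← hkc c hc]; group
  apply RankOne.commutator_not_comm hp ha ha1 hy hy1
  rw [e]
  calc a * m * a⁻¹ * m⁻¹ * (c * m) = (a * m * a⁻¹ * m⁻¹ * c) * m := by group
    _ = c * (a * m * a⁻¹ * m⁻¹ * m) := by rw [hkc c hc]; group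
    _ = c * (m * (a * m * a⁻¹ * m⁻¹)) := by rw [hkm m hm]
    _ = c * m * (a * m * a⁻¹ * m⁻¹) := by group

/-- commuting is transferred between `X` and `Y`. -/
theorem cm_transfer (hBC : RootCommutatorCase S B C) (hAC : Cm A C) {b : G} (hb : b ∈ B)
    (h : Cm A (conjBy C b⁻¹)) : Cm (conjBy A b⁻¹) C := by
  rintro _ ⟨a, ha, rfl⟩ c hc
  simp only [MulEquiv.coe_toMonoidHom, MulAut.conj_apply, inv_inv]
  have hm : c⁻¹ * b⁻¹ * c * b ∈ ⁅B, C⁆ := by
    rw [Subgroup.commutator_comm]; exact psi_mem hc hb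
  have h1 : a * (b⁻¹ * c * b) = (b⁻¹ * c * b) * a := by
    apply h a ha
    rw [mem_conjBy, inv_inv]
    have : b * (b⁻¹ * c * b) * b⁻¹ = c := by group
    rw [this]; exact hc
  have hac := hAC a ha c hc
  -- a commutes with m
  have h2 : a * (c⁻¹ * b⁻¹ * c * b) = (c⁻¹ * b⁻¹ * c * b) * a := by
    have hac' : a * c⁻¹ = c⁻¹ * a := by
      have : Commute a c := hac
      exact this.inv_right
    calc a * (c⁻¹ * b⁻¹ * c * b) = (a * c⁻¹) * (b⁻¹ * c * b) := by group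
      _ = c⁻¹ * (a * (b⁻¹ * c * b)) := by rw [hac']; group
      _ = c⁻¹ * ((b⁻¹ * c * b) * a) := by rw [h1]
      _ = (c⁻¹ * b⁻¹ * c * b) * a := by group
  -- b c b⁻¹ = c m⁻¹
  have hmb := hBC.2.1 _ hm b (Subgroup.mem_sup_left hb)
  have h3 : b * c * b⁻¹ = c * (c⁻¹ * b⁻¹ * c * b)⁻¹ := by
    have e1 : b * c * b⁻¹ = (b * (c * (c⁻¹ * b⁻¹ * c * b)) * b⁻¹)
        * (b * (c⁻¹ * b⁻¹ * c * b) * b⁻¹)⁻¹ := by group
    have e2 : b * (c * (c⁻¹ * b⁻¹ * c * b)) * b⁻¹ = c := by group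
    have e3 : b * (c⁻¹ * b⁻¹ * c * b) * b⁻¹ = c⁻¹ * b⁻¹ * c * b := by
      rw [← hmb]; group
    rw [e1, e2, e3]
  have h4 : a * (b * c * b⁻¹) = (b * c * b⁻¹) * a := by
    rw [h3]
    have c1 : Commute a c := hac
    have c2 : Commute a (c⁻¹ * b⁻¹ * c * b) := h2
    exact c1.mul_right c2.inv_right
  calc b⁻¹ * a * b * c = b⁻¹ * (a * (b * c * b⁻¹)) * b := by group
    _ = b⁻¹ * ((b * c * b⁻¹) * a) * b := by rw [h4]
    _ = c * (b⁻¹ * a * b) := by group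

end Cfsg.Agent.H22.Root
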