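import Mathlib
import Cfsg.Agent.Lib.Helper22.Root3

set_option autoImplicit false

/-! Abstract root subgroups: `X = ⟨A, C^b⟩`, `Y = ⟨A^b, C⟩`, `W = XY`. -/

namespace Cfsg.Agent.H22.Root

open Cfsg Cfsg.Agent.H25 Cfsg.Agent.H22

variable {G : Type*} [Group G] {S : Set (Subgroup G)} {A B C : Subgroup G}

theorem comm_mem_of_gen {V Z P Q : Subgroup G} (hZ : ∀ z ∈ Z, ∀ x ∈ V, z * x = x * z)
    (hV : V = P ⊔ Q) {y : G}
    (hP : ∀ p ∈ P, p * y * p⁻¹ * y⁻¹ ∈ Z) (hQ : ∀ q ∈ Q, q * y * q⁻¹ * y⁻¹ ∈ Z) :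
    ∀ x ∈ V, x * y * x⁻¹ * y⁻¹ ∈ Z := by
  let K : Subgroup G :=
    { carrier := {x | x ∈ V ∧ x * y * x⁻¹ * y⁻¹ ∈ Z}
      one_mem' := ⟨V.one_mem, by simp⟩
      mul_mem' := by
        rintro x x' ⟨hx, hxz⟩ ⟨hx', hxz'⟩
        refine ⟨V.mul_mem hx hx', ?_⟩
        have e : x * x' * y * (x * x')⁻¹ * y⁻¹
            = x * (x' * y * x'⁻¹ * y⁻¹) * x⁻¹ * (x * y * x⁻¹ * y⁻¹) := by group
        have e2 : x * (x' * y * x'⁻¹ * y⁻¹) * x⁻¹ = x' * y * x'⁻¹ * y⁻¹ := by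
          rw [← hZ _ hxz' x hx]; group
        rw [e, e2]
        exact Z.mul_mem hxz' hxz
      inv_mem' := by
        rintro x ⟨hx, hxz⟩
        refine ⟨V.inv_mem hx, ?_⟩
        have e : x⁻¹ * y * x⁻¹⁻¹ * y⁻¹ = x⁻¹ * (x * y * x⁻¹ * y⁻¹)⁻¹ * x := by group
        have e2 : x⁻¹ * (x * y * x⁻¹ * y⁻¹)⁻¹ * x = (x * y * x⁻¹ * y⁻¹)⁻¹ := by
          rw [← hZ _ (Z.inv_mem hxz) x⁻¹ (V.inv_mem hx)]; group
        rw [e, e2]
        exact Z.inv_mem hxz }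
  have hK : V ≤ K := by
    rw [hV]
    apply sup_le
    · intro p hp
      exact ⟨by rw [hV]; exact Subgroup.mem_sup_left hp, hP p hp⟩
    · intro q hq
      exact ⟨by rw [hV]; exact Subgroup.mem_sup_right hq, hQ q hq⟩
  intro x hx
  exact (hK hx).2

theorem comm_mem_all {V Z P Q : Subgroup G} (hZ : ∀ z ∈ Z, ∀ x ∈ V, z * x = x * z)
    (hV : V = P ⊔ Q)
    (hPP : ∀ p ∈ P, ∀ p' ∈ P, p * p' * p⁻¹ * p'⁻¹ ∈ Z)
    (hQQ : ∀ q ∈ Q, ∀ q' ∈ Q, q * q' * q⁻¹ * q'⁻¹ ∈ Z)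
    (hPQ : ∀ p ∈ P, ∀ q ∈ Q, p * q * p⁻¹ * q⁻¹ ∈ Z) :
    ∀ x ∈ V, ∀ y ∈ V, x * y * x⁻¹ * y⁻¹ ∈ Z := by
  have hinv : ∀ u v : G, u * v * u⁻¹ * v⁻¹ ∈ Z → v * u * v⁻¹ * u⁻¹ ∈ Z := by
    intro u v h
    have : v * u * v⁻¹ * u⁻¹ = (u * v * u⁻¹ * v⁻¹)⁻¹ := by group
    rw [this]; exact inv_mem h
  have h1 : ∀ y ∈ P, ∀ x ∈ V, x * y * x⁻¹ * y⁻¹ ∈ Z := fun y hy =>
    comm_mem_of_gen hZ hV (fun p hp => hPP p hp y hy) (fun q hq => hinv _ _ (hPQ y hy q hq))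
  have h2 : ∀ y ∈ Q, ∀ x ∈ V, x * y * x⁻¹ * y⁻¹ ∈ Z := fun y hy =>
    comm_mem_of_gen hZ hV (fun p hp => hPQ p hp y hy) (fun q hq => hQQ q hq y hy)
  intro x hx y hy
  apply hinv
  exact comm_mem_of_gen hZ hV (fun p hp => hinv _ _ (h1 p hp x hx))
    (fun q hq => hinv _ _ (h2 q hq x hx)) y hy

theorem comm_one_of_cm {P Q : Subgroup G} (h : Cm P Q) {p q : G} (hp : p ∈ P) (hq : q ∈ Q) :
    p * q * p⁻¹ * q⁻¹ = 1 := by
  rw [h p hp q hq]; group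

structure Trip (S : Set (Subgroup G)) (A B C : Subgroup G) : Prop where
  hS : IsRootSubgroupSet S
  hA : A ∈ S
  hB : B ∈ S
  hC : C ∈ S
  hAB : RootCommutatorCase S A B
  hBC : RootCommutatorCase S B C
  hAC : Cm A C

namespace Trip

theorem symm (t : Trip S A B C) : Trip S C B A :=
  ⟨t.hS, t.hC, t.hB, t.hA, RootComm_symm t.hBC, RootComm_symm t.hAB, t.hAC.symm⟩

theorem pairX (t : Trip S A B C) {g : G} (hg : g ∈ B) :
    ⁅A, conjBy C g⁆ = ⊥ ∨ RootCommutatorCase S A (conjBy C g) := by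
  rcases t.hS.pair A t.hA _ (t.hS.conj_mem C t.hC g) with h | h | h
  · exact Or.inl h
  · exact absurd h (not_rankOne_AC1 t.hS t.hA t.hC t.hBC t.hAC t.hB hg)
  · exact Or.inr h

theorem centralX (t : Trip S A B C) {g : G} (hg : g ∈ B) :
    ∀ z ∈ ⁅A, conjBy C g⁆, ∀ x ∈ A ⊔ conjBy C g, z * x = x * z := by
  rcases t.pairX hg with h | h
  · intro z hz x _
    rw [h] at hz
    rw [Subgroup.mem_bot.1 hz]; simp
  · exact h.2.1

theorem centralY (t : Trip S A B C) {g : G} (hg : g ∈ B) :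
    ∀ z ∈ ⁅conjBy A g, C⁆, ∀ x ∈ conjBy A g ⊔ C, z * x = x * z := by
  intro z hz x hx
  rw [Subgroup.commutator_comm] at hz
  rw [sup_comm] at hx
  exact t.symm.centralX hg z hz x hx

theorem commX (t : Trip S A B C) {g : G} (hg : g ∈ B) :
    ∀ x ∈ A ⊔ conjBy C g, ∀ y ∈ A ⊔ conjBy C g, x * y * x⁻¹ * y⁻¹ ∈ ⁅A, conjBy C g⁆ := by
  apply comm_mem_all (t.centralX hg) rfl
  · intro p hp p' hp'
    rw [comm_one_of_cm (cm_self t.hS t.hA) hp hp']; exact one_mem _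
  · intro p hp p' hp'
    rw [comm_one_of_cm (cm_self t.hS (t.hS.conj_mem C t.hC g)) hp hp']; exact one_mem _
  · intro p hp q hq
    exact commutator_mem hp hq

theorem commY (t : Trip S A B C) {g : G} (hg : g ∈ B) :
    ∀ x ∈ conjBy A g ⊔ C, ∀ y ∈ conjBy A g ⊔ C, x * y * x⁻¹ * y⁻¹ ∈ ⁅conjBy A g, C⁆ := by
  intro x hx y hy
  rw [Subgroup.commutator_comm]
  rw [sup_comm] at hx hy
  exact t.symm.commX hg x hx y hy

theorem cmXY (t : Trip S A B C) {g : G} (hg : g ∈ B) :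
    Cm (A ⊔ conjBy C g) (conjBy A g ⊔ C) := by
  apply Cm.sup_left
  · apply cm_sup_right
    · exact cm_mono (cm_A_AL t.hS t.hA t.hAB) le_rfl (conjBy_le hg)
    · exact t.hAC
  · apply cm_sup_right
    · exact cm_conj t.hAC.symm g
    · have h1 : Cm C (C ⊔ ⁅C, B⁆) := cm_A_AL t.hS t.hC (RootComm_symm t.hBC)
      exact (cm_mono h1 le_rfl (conjBy_le hg)).symm

/-- `W = X ⊔ Y` -/
abbrev W (A C : Subgroup G) (g : G) : Subgroup G := (A ⊔ conjBy C g) ⊔ (conjBy A g ⊔ C)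

abbrev ZW (A C : Subgroup G) (g : G) : Subgroup G := ⁅A, conjBy C g⁆ ⊔ ⁅conjBy A g, C⁆

theorem comm_le_sup (P Q : Subgroup G) : ⁅P, Q⁆ ≤ P ⊔ Q := by
  rw [Subgroup.commutator_le]
  intro x hx y hy
  rw [commutatorElement_def]
  exact mul_mem (mul_mem (mul_mem (Subgroup.mem_sup_left hx) (Subgroup.mem_sup_right hy))
    (inv_mem (Subgroup.mem_sup_left hx))) (inv_mem (Subgroup.mem_sup_right hy))

theorem centralW (t : Trip S A B C) {g : G} (hg : g ∈ B) :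
    ∀ z ∈ ZW A C g, ∀ x ∈ W A C g, z * x = x * z := by
  have h1 : Cm ⁅A, conjBy C g⁆ (W A C g) := by
    apply cm_sup_right
    · exact t.centralX hg
    · exact cm_mono (t.cmXY hg) (comm_le_sup _ _) le_rfl
  have h2 : Cm ⁅conjBy A g, C⁆ (W A C g) := by
    apply cm_sup_right
    · exact (cm_mono (t.cmXY hg) le_rfl (comm_le_sup _ _)).symm
    · exact t.centralY hg
  exact Cm.sup_left h1 h2

theorem commW (t : Trip S A B C) {g : G} (hg : g ∈ B) :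
    ∀ x ∈ W A C g, ∀ y ∈ W A C g, x * y * x⁻¹ * y⁻¹ ∈ ZW A C g := by
  apply comm_mem_all (t.centralW hg) rfl
  · intro p hp p' hp'
    exact Subgroup.mem_sup_left (t.commX hg p hp p' hp')
  · intro p hp p' hp'
    exact Subgroup.mem_sup_right (t.commY hg p hp p' hp')
  · intro p hp q hq
    rw [comm_one_of_cm (t.cmXY hg) hp hq]; exact one_mem _

theorem L_le (t : Trip S A B C) {g : G} (hg : g ∈ B) (hg1 : g ≠ 1) : ⁅A, B⁆ ≤ A ⊔ conjBy A g := by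
  rw [← t.hAB.2.2.2 g hg hg1, Subgroup.closure_le]
  rintro _ ⟨a, ha, rfl⟩
  have : a * g * a⁻¹ * g⁻¹ = a * (g * a⁻¹ * g⁻¹) := by group
  show a * g * a⁻¹ * g⁻¹ ∈ _
  rw [this]
  exact mul_mem (Subgroup.mem_sup_left ha)
    (Subgroup.mem_sup_right (conj_mem_conjBy (A.inv_mem ha) g))

theorem L_le_W (t : Trip S A B C) {g : G} (hg : g ∈ B) (hg1 : g ≠ 1) : ⁅A, B⁆ ≤ W A C g :=
  (t.L_le hg hg1).trans (sup_le (le_sup_left.trans le_sup_left) (le_sup_left.trans le_sup_right))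

theorem M_le_W (t : Trip S A B C) {g : G} (hg : g ∈ B) (hg1 : g ≠ 1) : ⁅B, C⁆ ≤ W A C g := by
  rw [Subgroup.commutator_comm]
  exact (t.symm.L_le hg hg1).trans
    (sup_le (le_sup_right.trans le_sup_right) (le_sup_right.trans le_sup_left))

theorem conj_W_le (t : Trip S A B C) {g : G} (hg : g ∈ B) (hg1 : g ≠ 1) {b' : G} (hb' : b' ∈ B) :
    conjBy (W A C g) b' ≤ W A C g := by
  have hAL : A ⊔ ⁅A, B⁆ ≤ W A C g :=
    sup_le (le_sup_left.trans le_sup_left) (t.L_le_W hg hg1)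
  have hCM : C ⊔ ⁅B, C⁆ ≤ W A C g :=
    sup_le (le_sup_right.trans le_sup_right) (t.M_le_W hg hg1)
  rw [conjBy_sup, conjBy_sup, conjBy_sup, conjBy_conjBy, conjBy_conjBy]
  apply sup_le
  · apply sup_le
    · exact (conjBy_le hb').trans hAL
    · exact (conjBy_le' (B.mul_mem hb' hg)).trans hCM
  · apply sup_le
    · exact (conjBy_le (B.mul_mem hb' hg)).trans hAL
    · exact (conjBy_le' hb').trans hCM

theorem B_le_normalizer (t : Trip S A B C) {g : G} (hg : g ∈ B) (hg1 : g ≠ 1) :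
    B ≤ Subgroup.normalizer ((W A C g : Subgroup G) : Set G) := by
  intro b' hb'
  rw [← conjBy_eq_self_iff]
  apply le_antisymm (t.conj_W_le hg hg1 hb')
  have := conjBy_mono (t.conj_W_le hg hg1 (B.inv_mem hb')) b'
  rwa [conjBy_conjBy_inv] at this

/-- The line lemma: no member `D ≤ AC` forms a rank one pair with `B`. -/
theorem not_rankOne (t : Trip S A B C) {D : Subgroup G} (hD : D ≤ A ⊔ C) : ¬ IsRankOnePair D B := by
  intro hp
  obtain ⟨g, hg, hg1⟩ := Root.exists_ne_one t.hS t.hB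
  have hDW : D ≤ W A C g :=
    hD.trans (sup_le (le_sup_left.trans le_sup_left) (le_sup_right.trans le_sup_right))
  have hN : D ⊔ B ≤ Subgroup.normalizer ((W A C g : Subgroup G) : Set G) :=
    sup_le (hDW.trans Subgroup.le_normalizer) (t.B_le_normalizer hg hg1)
  obtain ⟨x, hx, hBx⟩ := RankOne.right_mem_unipotent hp
  have hBW : B ≤ W A C g := by
    rw [hBx, ← conjBy_eq_self_iff.2 (hN hx)]
    exact conjBy_mono hDW x
  obtain ⟨d, hd, hd1⟩ := RankOne.exists_ne_one hp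
  apply RankOne.commutator_not_comm hp hd hd1 hg hg1
  exact t.centralW hg _ (t.commW hg d (hDW hd) g (hBW hg)) g (hBW hg)

end Trip

end Cfsg.Agent.H22.Root
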