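import Mathlib
import Cfsg.Agent.Lib.Helper22.SemiFrob

/-! Additive version of the fixed-point-free engine. -/

set_option autoImplicit false

namespace Cfsg.Agent.Lib.Helper22

open Multiplicative

/-- the action on `Multiplicative V` by group automorphisms coming from a distributive action. -/
noncomputable def addActionHom (H V : Type*) [Group H] [AddGroup V] [DistribMulAction H V] :
    H →* MulAut (Multiplicative V) where
  toFun h :=
    { toFun := fun x => ofAdd (h • toAdd x)
      invFun := fun x => ofAdd (h⁻¹ • toAdd x)
      left_inv := fun x => by simp
      right_inv := fun x => by simp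
      map_mul' := fun x y => by simp [smul_add] }
  map_one' := by
    ext x
    simp
  map_mul' a b := by
    ext x
    simp [mul_smul]

theorem addActionHom_apply {H V : Type*} [Group H] [AddGroup V] [DistribMulAction H V] (h : H)
    (x : Multiplicative V) : addActionHom H V h x = ofAdd (h • toAdd x) := rfl

theorem exists_frobeniusComplement_of_fpf_add {H V : Type*} [Group H] [Finite H] [Nontrivial H]
    [AddGroup V] [Finite V] [Nontrivial V] [DistribMulAction H V]
    (hfpf : ∀ h : H, h ≠ 1 → ∀ v : V, h • v = v → v = 0) :
    ∃ (L : Type) (_ : Group L) (_ : Finite L) (C : Subgroup L), Cfsg.IsFrobeniusComplement C ∧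
      Nonempty (H ≃* C) ∧ Nat.card (Cfsg.frobeniusKernel C) = Nat.card V := by
  have h := exists_frobeniusComplement_of_fpf (addActionHom H V) (by
    intro h hh k hk
    rw [addActionHom_apply] at hk
    have h1 : h • toAdd k = toAdd k := congrArg toAdd hk
    have h2 := hfpf h hh _ h1
    exact congrArg ofAdd h2)
  exact h

end Cfsg.Agent.Lib.Helper22
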